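import Cfsg.Agent.H12.RuRec.Checks

/-!
The suborbit of 1755 points, orbit forests, and generalities on the stabiliser of the first point.
-/

set_option autoImplicit false
set_option maxRecDepth 100000

open Equiv Cfsg.Agent.H16 Cfsg.Agent.H36 Cfsg.Agent.H36.AutEngine Cfsg.Agent.H56.RuTits

namespace Cfsg.Agent.H12.RuRec

noncomputable section

theorem all4060_spec {p : ℕ → Bool} (h : all4060 p = true) (x : Fin 4060) : p x = true :=
  allFrom_spec h x (Nat.zero_le _) (by omega)

theorem all4060_lt {p : ℕ → Bool} (h : all4060 p = true) {x : ℕ} (hx : x < 4060) : p x = true :=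
  allFrom_spec h x (Nat.zero_le _) (by omega)

theorem memB_iff {l : List ℕ} {x : ℕ} : memB l x = true ↔ x ∈ l := by
  simp [memB, List.any_eq_true]

theorem sameB_iff {a b : Bool} : sameB a b = true ↔ (a = true ↔ b = true) := by
  cases a <;> cases b <;> simp [sameB]

/-- Membership in the suborbit of 1755 points. -/
def IsB (x : Fin 4060) : Prop := inB x = true

theorem isB_iff {x : Fin 4060} : IsB x ↔ Ctx.rank gLev1 (x : ℕ) ≠ 0 := by
  simp [IsB, inB, Bool.eq_false_iff]

theorem not_isB_zero : ¬ IsB 0 := by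
  show ¬ (inB 0 = true)
  rw [show inB 0 = false by decide +kernel]
  exact Bool.false_ne_true

theorem code_root : Ctx.rank gLev2 2306 ≠ 0 ∧ Ctx.rank gLev3 2308 ≠ 0 ∧ Ctx.rank gLev1 2305 ≠ 0 := by
  decide +kernel

/-- The code with given first image and trivial other steps. -/
def rootCode (a : ℕ) : ℕ := a + 4096 * (2306 + 4096 * 2308)

theorem rootCode_ok {a : Fin 4060} (ha : IsB a) :
    codeOk (rootCode a) = true ∧ codeA (rootCode a) = a := by
  obtain ⟨e1, e2, e3⟩ := code_fields a.2 (b := 2306) (c := 2308) (by omega) (by omega)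
  refine ⟨?_, e1⟩
  simp only [codeOk, rootCode, e1, e2, e3, Bool.and_eq_true, Nat.blt_eq, Bool.not_eq_true']
  exact ⟨⟨⟨⟨⟨a.2, by omega⟩, by omega⟩, by simpa [Bool.eq_false_iff] using isB_iff.1 ha⟩,
    by simpa [Bool.eq_false_iff] using code_root.1⟩, by simpa [Bool.eq_false_iff] using code_root.2.1⟩

theorem el_zero {k : ℕ} (h : codeOk k = true) : el k 0 = 0 := (el_spec h).1.2

theorem el_val {k : ℕ} (h : codeOk k = true) (x : Fin 4060) : ((el k x : Fin 4060) : ℕ) = ev k x :=
  (el_spec h).2.1 x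

theorem el_pt {k : ℕ} (h : codeOk k = true) {x : ℕ} (hx : x < 4060) : el k (pt x) = pt (ev k x) := by
  have e := el_val h (pt x)
  rw [pt_val hx] at e
  exact Fin.ext (by rw [e, pt_val (e ▸ Fin.isLt _)])

theorem ev_lt {k : ℕ} (h : codeOk k = true) {x : ℕ} (hx : x < 4060) : ev k x < 4060 := by
  have e := el_val h (pt x)
  rw [pt_val hx] at e
  exact e ▸ Fin.isLt _

theorem el_fix {k : ℕ} (h : codeOk k = true) {x : ℕ} (hx : x < 4060) (e : Nat.beq (ev k x) x = true) :
    el k (pt x) = pt x := by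
  rw [el_pt h hx, Nat.eq_of_beq_eq_true e]

theorem iterPt_el {k : ℕ} (h : codeOk k = true) (n : ℕ) (x : Fin 4060) :
    iterPt (ev k) n x = (((el k) ^ n) x : Fin 4060) :=
  Ctx.iterPt_spec (D := ctxG) (g := el k) (fun y => (el_val h y).symm) n x

theorem baseEq_iff {f g : ℕ → ℕ} : baseEq f g = true ↔ f 2305 = g 2305 ∧ f 2306 = g 2306 ∧ f 2308 = g 2308 := by
  simp [baseEq, and_assoc]

theorem pt_ne {a b : ℕ} (ha : a < 4060) (hb : b < 4060) (h : a ≠ b) : (pt a : Fin 4060) ≠ pt b :=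
  fun e => h (by rw [← pt_val ha, e, pt_val hb])

variable (hcard : Nat.card ruPerm = 145926144000)

include hcard

theorem eq_of_baseEq {g g' : Perm (Fin 4060)} (hg : g ∈ Tg) (hg' : g' ∈ Tg) {f f' : ℕ → ℕ}
    (hf : ∀ x : Fin 4060, ((g x : Fin 4060) : ℕ) = f x) (hf' : ∀ x : Fin 4060, ((g' x : Fin 4060) : ℕ) = f' x)
    (h : baseEq f f' = true) : g = g' := by
  obtain ⟨h1, h2, h3⟩ := baseEq_iff.1 h
  have key : ∀ n, n < 4060 → f n = f' n → g (pt n) = g' (pt n) := fun n hn e =>
    Fin.ext (by rw [hf, hf', pt_val hn, e])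
  exact eq_of_base hcard hg hg' (key _ (by omega) h1) (key _ (by omega) h2) (key _ (by omega) h3)

theorem baseEq_of_eq {g : Perm (Fin 4060)} {f f' : ℕ → ℕ}
    (hf : ∀ x : Fin 4060, ((g x : Fin 4060) : ℕ) = f x) (hf' : ∀ x : Fin 4060, ((g x : Fin 4060) : ℕ) = f' x) :
    baseEq f f' = true := by
  have key : ∀ n, n < 4060 → f n = f' n := fun n hn => by
    have := (hf (pt n)).symm.trans (hf' (pt n))
    rwa [pt_val hn] at this
  exact baseEq_iff.2 ⟨key _ (by omega), key _ (by omega), key _ (by omega)⟩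

theorem isB_apply {g : Perm (Fin 4060)} (hg : g ∈ Tg) {x : Fin 4060} (hx : IsB x) : IsB (g x) := by
  obtain ⟨hok, hA⟩ := rootCode_ok hx
  have hm := (el_spec hok).1
  have e : el (rootCode x) (pt 2305) = x := by rw [(el_spec hok).2.2.2, hA, pt_self]
  obtain ⟨k, hk, he⟩ := exists_code hcard (Tg.mul_mem hg hm)
  have e2 : g x = pt (codeA k) := by
    rw [← (el_spec hk).2.2.2, ← he, Perm.mul_apply, e]
  rw [isB_iff, e2, pt_val (codeOk_spec hk).1.1]
  exact (codeOk_spec hk).1.2

theorem isB_apply_iff {g : Perm (Fin 4060)} (hg : g ∈ Tg) {x : Fin 4060} : IsB (g x) ↔ IsB x :=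
  ⟨fun h => by simpa using isB_apply hcard (Tg.inv_mem hg) h, isB_apply hcard hg⟩

theorem exists_moveB {x : Fin 4060} (hx : IsB x) : ∃ g ∈ Tg, g (pt 2305) = x := by
  obtain ⟨hok, hA⟩ := rootCode_ok hx
  exact ⟨_, (el_spec hok).1, by rw [(el_spec hok).2.2.2, hA, pt_self]⟩

end

section Forest

variable {gens : List ℕ} {F : PArr} (h : forestOk gens F = true)
variable {H : Subgroup (Perm (Fin 4060))} (hH : ∀ k ∈ gens, el k ∈ H)

include h hH

theorem forest_mem : ∀ x : Fin 4060, fRoot F x < 4060 ∧ fRoot F (fRoot F x) = fRoot F x ∧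
    ∃ g ∈ H, g (pt (fRoot F x)) = x := by
  simp only [forestOk, Bool.and_eq_true, List.all_eq_true] at h
  suffices key : ∀ r, ∀ x : Fin 4060, fRank F x = r → fRoot F x < 4060 ∧ fRoot F (fRoot F x) = fRoot F x ∧
      ∃ g ∈ H, g (pt (fRoot F x)) = x from fun x => key _ x rfl
  intro r
  induction r using Nat.strong_induction_on with
  | h r ih =>
    intro x hr
    have hx := all4060_spec h.2 x
    simp only [forestPt, forceNat_eq, hr] at hx
    rcases hb : Nat.beq r 1 with _ | _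
    · rw [hb, cond_false] at hx
      simp only [Bool.and_eq_true, Nat.blt_eq] at hx
      obtain ⟨⟨⟨⟨hg, hp⟩, hs⟩, hroot⟩, hev⟩ := hx
      have hk : codeOk (getN gens (fGen F x)) = true := h.1 _ (getN_mem _ hg)
      have hs' : fRank F (fPar F x) + 1 = r := Nat.eq_of_beq_eq_true hs
      obtain ⟨e1, e2, u, hu, e3⟩ := ih (fRank F (fPar F x)) (by omega) (pt (fPar F x)) (by rw [pt_val hp])
      rw [pt_val hp] at e1 e2 e3
      have hroot' := Nat.eq_of_beq_eq_true hroot
      rw [hroot'] at e1 e2 e3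
      refine ⟨e1, e2, el (getN gens (fGen F x)) * u, H.mul_mem (hH _ (getN_mem _ hg)) hu, ?_⟩
      rw [Perm.mul_apply, e3, el_pt hk hp, Nat.eq_of_beq_eq_true hev, pt_self]
    · rw [hb, cond_true] at hx
      have e := Nat.eq_of_beq_eq_true hx
      rw [e]
      exact ⟨x.2, e, 1, H.one_mem, by rw [pt_self]; rfl⟩

/-- An invariant set consists of trees. -/
theorem forest_invariant {R : Set (Fin 4060)} (hR : ∀ g ∈ H, ∀ x ∈ R, g x ∈ R) (x : Fin 4060) :
    x ∈ R ↔ pt (fRoot F x) ∈ R := by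
  obtain ⟨-, -, g, hg, e⟩ := forest_mem h hH x
  refine ⟨fun hx => ?_, fun hx => e ▸ hR g hg _ hx⟩
  have := hR _ (H.inv_mem hg) x hx
  rwa [Perm.inv_eq_iff_eq.2 e.symm] at this

omit h hH in
theorem treeSize_eq (F : PArr) (r : ℕ) : {x : Fin 4060 | fRoot F x = r}.ncard = treeSize F r :=
  ncard_of_countFrom (fun x => Nat.beq (fRoot F x) r) _ fun x => by simp

/-- The size of an invariant set of points, by trees. -/
theorem ncard_invariant {n : ℕ} (ρ : Fin n → ℕ) (sz : Fin n → ℕ) (hinj : Function.Injective ρ)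
    (hsz : ∀ i, treeSize F (ρ i) = sz i) (S : Set (Fin 4060)) (hS : ∀ x ∈ S, ∃ i, fRoot F x = ρ i)
    {R : Set (Fin 4060)} (hR : ∀ g ∈ H, ∀ x ∈ R, g x ∈ R) (hRS : R ⊆ S) [∀ i, Decidable (pt (ρ i) ∈ R)] :
    R.ncard = ∑ i, if pt (ρ i) ∈ R then sz i else 0 := by
  classical
  set T := (Finset.univ : Finset (Fin n)).filter fun i => pt (ρ i) ∈ R with hT
  have hRe : R = ((T.biUnion fun i => Finset.univ.filter fun x : Fin 4060 => fRoot F x = ρ i : Finset (Fin 4060)) : Set (Fin 4060)) := by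
    ext x
    simp only [Finset.coe_biUnion, Finset.mem_coe, Set.mem_iUnion, Finset.coe_filter, Finset.mem_univ, true_and,
      Set.mem_setOf_eq, hT, Finset.mem_filter, exists_prop]
    constructor
    · intro hx
      obtain ⟨i, hi⟩ := hS x (hRS hx)
      exact ⟨i, hi ▸ (forest_invariant h hH hR x).1 hx, hi⟩
    · rintro ⟨i, hi, e⟩
      exact (forest_invariant h hH hR x).2 (e ▸ hi)
  conv_lhs => rw [hRe]
  rw [Set.ncard_coe_finset, Finset.card_biUnion, ← Finset.sum_filter, ← hT]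
  · refine Finset.sum_congr rfl fun i _ => ?_
    rw [← hsz i, ← treeSize_eq, ← Set.ncard_coe_finset]
    exact congrArg Set.ncard (by ext x; simp)
  · intro i _ j _ hij
    simp only [Function.onFun, Finset.disjoint_left, Finset.mem_filter, Finset.mem_univ, true_and]
    exact fun x e e' => hij (hinj (e.symm.trans e'))

end Forest

end Cfsg.Agent.H12.RuRec
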