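import Cfsg.Agent.H12.RuRec.Data

/-!
The computations behind the recognition of the Rudvalis group: orbit forests, rows of the graph,
and signature keys.
-/

set_option autoImplicit false
set_option maxRecDepth 100000

open Cfsg.Agent.H16 Cfsg.Agent.H36 Cfsg.Agent.H36.AutEngine Cfsg.Agent.H56.RuTits

namespace Cfsg.Agent.H12.RuRec

/-- A test at every point. -/
noncomputable def all4060 (p : ℕ → Bool) : Bool := allFrom p 4060 0

/-- Membership in a list of numbers. -/
noncomputable def memB (l : List ℕ) (x : ℕ) : Bool := l.any fun y => Nat.beq y x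

/-- Equality of two Boolean values. -/
noncomputable def sameB (a b : Bool) : Bool := bif a then b else !b

/-- The suborbit of 1755 points. -/
noncomputable def inB (x : ℕ) : Bool := !(Nat.beq (Ctx.rank gLev1 x) 0)

/-- Two maps agree on the three base points. -/
noncomputable def baseEq (f g : ℕ → ℕ) : Bool :=
  Nat.beq (f 2305) (g 2305) && Nat.beq (f 2306) (g 2306) && Nat.beq (f 2308) (g 2308)

/-- The generator of a point in a forest. -/
noncomputable def fGen (F : PArr) (x : ℕ) : ℕ := bitField (F.get 48 x) 0 8

/-- The parent of a point in a forest. -/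
noncomputable def fPar (F : PArr) (x : ℕ) : ℕ := bitField (F.get 48 x) 8 12

/-- The rank of a point in a forest. -/
noncomputable def fRank (F : PArr) (x : ℕ) : ℕ := bitField (F.get 48 x) 20 8

/-- The root of a point in a forest. -/
noncomputable def fRoot (F : PArr) (x : ℕ) : ℕ := bitField (F.get 48 x) 28 12

/-- The test of a forest at a point. -/
noncomputable def forestPt (gens : List ℕ) (F : PArr) (x : ℕ) : Bool :=
  forceNat (fRank F x) fun r => forceNat (fRoot F x) fun ρ =>
  bif Nat.beq r 1 then Nat.beq ρ x else
    forceNat (fGen F x) fun g => forceNat (fPar F x) fun p =>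
      Nat.blt g gens.length && Nat.blt p 4060 && Nat.beq (Nat.succ (fRank F p)) r &&
        Nat.beq (fRoot F p) ρ && Nat.beq (ev (getN gens g) p) x

/-- The test of a forest. -/
noncomputable def forestOk (gens : List ℕ) (F : PArr) : Bool :=
  gens.all codeOk && all4060 (forestPt gens F)

/-- The points of one tree. -/
noncomputable def treeSize (F : PArr) (r : ℕ) : ℕ := countFrom (fun x => Nat.beq (fRoot F x) r) 4060 0

/-- The sizes of the listed trees. -/
noncomputable def sizesOk (F : PArr) (roots sizes : List ℕ) : Bool :=
  allFrom (fun i => Nat.beq (treeSize F (getN roots i)) (getN sizes i)) roots.length 0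

/-- A bit of a row. -/
noncomputable def bitAt (v x : ℕ) : ℕ := Nat.land (Nat.shiftRight v x) 1

/-- Membership in a row. -/
noncomputable def inRow (v x : ℕ) : Bool := Nat.beq (bitAt v x) 1

/-- The neighbours of a point as a row. -/
noncomputable def rowBuild (z : ℕ) (n : ℕ) : ℕ → ℕ :=
  Nat.rec (motive := fun _ => ℕ → ℕ) (fun _ => 0)
    (fun _ ih lo => forceNat lo fun lo => forceNat (ih (Nat.succ lo)) fun acc =>
      bif inB lo then forceNat (stepUp gLev0 z lo) fun x => Nat.lor acc (Nat.shiftLeft 1 x) else acc) n

/-- The test of a list of rows. -/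
noncomputable def rowListOk (l : List (ℕ × ℕ)) : Bool :=
  l.all fun e => Nat.blt e.1 4060 && !(Nat.beq (Ctx.rank gLev0 e.1) 0) && Nat.beq (rowBuild e.1 4060 0) e.2

/-- The points and rows of a list of sets correspond. -/
noncomputable def setsOk (pts rows : List (List ℕ)) : Bool :=
  Nat.beq pts.length rows.length && allFrom (fun i =>
    Nat.beq (getW pts i).length (getW rows i).length && allFrom (fun j =>
      rowList.any fun e => Nat.beq e.1 (getN (getW pts i) j) && Nat.beq e.2 (getN (getW rows i) j))
      (getW pts i).length 0) pts.length 0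

/-- The neighbours of a point in a set. -/
noncomputable def cntIn (W : List ℕ) (x : ℕ) : ℕ :=
  List.rec (motive := fun _ => ℕ) 0 (fun v _ ih => Nat.add (bitAt v x) ih) W

/-- The signature of a point with respect to a list of sets. -/
noncomputable def keyOf (Ws : List (List ℕ)) (x : ℕ) : ℕ :=
  List.rec (motive := fun _ => ℕ) 0 (fun W _ ih => Nat.add (cntIn W x) (Nat.mul 16 ih)) Ws

/-- Some signatures characterise sets. -/
noncomputable def classesOk (Ws : List (List ℕ)) (l : List (ℕ × List ℕ)) : Bool :=
  all4060 fun x => forceNat x fun x => forceNat (keyOf Ws x) fun k => l.all fun e => sameB (Nat.beq k e.1) (memB e.2 x)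

/-- Some signatures characterise points. -/
noncomputable def singlesOk (Ws : List (List ℕ)) (l : List (ℕ × ℕ)) : Bool :=
  all4060 fun x => forceNat x fun x => forceNat (keyOf Ws x) fun k => l.all fun e => sameB (Nat.beq k e.1) (Nat.beq e.2 x)

/-- The signatures are distinct, by an increasing enumeration. -/
noncomputable def orderOk (Ws : List (List ℕ)) (ord pos : ℕ) : Bool :=
  all4060 (fun x => forceNat (pim 12 pos x) fun i => Nat.blt i 4060 && Nat.beq (pim 12 ord i) x) &&
  allFrom (fun i => forceNat i fun i => Nat.blt (keyOf Ws (pim 12 ord i)) (keyOf Ws (pim 12 ord (Nat.succ i)))) 4059 0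

/-- A listed orbit of more than three hundred points. -/
noncomputable def orbOk (e : ℕ × ℕ × ℕ × ℕ) : Bool :=
  codeOk e.1 && Nat.beq (pim 12 e.2.1 0) 358 && allFrom (fun i => forceNat i fun i =>
    forceNat (pim 12 e.2.1 i) fun o => Nat.blt o 4060 && Nat.beq (pim 9 e.2.2.2 o) (Nat.succ i) &&
      (Nat.beq i 0 || forceNat (pim 12 e.2.2.1 i) fun v => forceNat (bitField v 0 9) fun p =>
        forceNat (bitField v 9 3) fun g => Nat.blt g 3 && Nat.blt p i &&
          Nat.beq (ev (getN [tC, fC, e.1] g) (pim 12 e.2.1 p)) o)) 301 0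

/-- A listed candidate. -/
noncomputable def inSols (k : ℕ) : Bool :=
  (solsF.any fun e => Nat.beq e.1 k) || (solsFix.any fun e => Nat.beq e.1 k) || solsOrb.any fun e => Nat.beq e.1 k

/-- A candidate normalising the group of the element of order four is listed. -/
noncomputable def candGood (k : ℕ) (f' : ℕ → ℕ) : Bool :=
  forceNat k fun k => !(baseEq (fun b => ev k (ev fC b)) (fun b => f' (ev k b))) ||
    !(anyFrom4 fun j => baseEq (fun b => ev k (ev k b)) (iterPt (ev fC) j)) || inSols k
where
  /-- One of four. -/
  anyFrom4 (p : ℕ → Bool) : Bool := p 0 || p 1 || p 2 || p 3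

/-- The test of the candidates with given first image and sign. -/
noncomputable def candScan (a b : ℕ) (f' : ℕ → ℕ) : Bool :=
  forceNat (stepUp gLev1 a b) fun z => forceNat (f' z) fun z' => forceNat (stepDn gLev1 a z') fun y =>
  forceNat (stepDn gLev2 b y) fun tg => allFrom (fun i => !(Nat.beq (getN ws20 i) tg) ||
    candGood (Nat.add a (Nat.mul 4096 (Nat.add b (Nat.mul 4096 (getN cs20 i))))) f') 20 0

/-- The element of a code in the stabiliser of the three points. -/
noncomputable def qCode (c : ℕ) : ℕ := Nat.add 2305 (Nat.mul 4096 (Nat.add 2306 (Nat.mul 4096 c)))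

end Cfsg.Agent.H12.RuRec
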