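import Cfsg.Agent.H12.RuRec.Cert

/-! Kernel checks for the recognition of the Rudvalis group. -/

set_option autoImplicit false
set_option maxRecDepth 100000

open Cfsg.Agent.H16 Cfsg.Agent.H36 Cfsg.Agent.H36.AutEngine Cfsg.Agent.H56.RuTits

namespace Cfsg.Agent.H12.RuRec

theorem forP_ok : forestOk genP forP = true := by decide +kernel

theorem genP_fix : genP.all (fun k => Nat.beq (codeA k) 2305) = true := by decide +kernel

theorem sizeP_ok : sizesOk forP rootsP sizeP = true := by decide +kernel

theorem rootsP_ok : all4060 (fun x => memB rootsP (fRoot forP x) &&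
    (!(inB x) || memB [2305, 2306, 3330, 3331, 3844] (fRoot forP x)) &&
    (inB x || memB [0, 1, 641] (fRoot forP x))) = true := by decide +kernel

theorem forS_ok : forestOk genS forS = true := by decide +kernel

theorem genS_fix : genS.all (fun k => Nat.beq (codeA k) 2305 &&
    memB pairY (ev k 3330) && memB pairY (ev k 3843)) = true := by decide +kernel

theorem genS_first : (Nat.beq (ev (getN genS 0) 2306) 2306 &&
    allFrom (fun i => allFrom (fun j => Nat.beq i j ||
      !(Nat.beq (iterPt (ev (getN genS 0)) i 2308) (iterPt (ev (getN genS 0)) j 2308))) 4 0) 4 0) = true := by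
  decide +kernel

theorem sizeS_ok : Nat.beq (treeSize forS 2306) 1024 = true := by decide +kernel

theorem pairCodes_ok : (Nat.beq pairCodes.length 10 && pairCodes.all (fun k => codeOk k && Nat.beq (codeA k) 2305) &&
    allFrom (fun i => allFrom (fun j => Nat.beq i j ||
      !(Nat.beq (ev (getN pairCodes i) 3330) (ev (getN pairCodes j) 3330))) 10 0) 10 0) = true := by decide +kernel

theorem bigS_ok : (bigS.all (fun l => Nat.beq l.length 5 &&
    allFrom (fun i => Nat.blt (getN l i) 4060 && Nat.beq (fRoot forS (getN l i)) (fRoot forS (getN l 0)) &&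
      allFrom (fun j => Nat.beq i j || !(Nat.beq (getN l i) (getN l j))) 5 0) 5 0) &&
    all4060 (fun x => forceNat x fun x => !(inB x) || Nat.beq x 2305 || memB pairY x ||
      bigS.any (fun l => Nat.beq (fRoot forS (getN l 0)) (fRoot forS x)))) = true := by decide +kernel

theorem forC_ok : forestOk genC forC = true := by decide +kernel

theorem rootC_ok : all4060 (fun x => Nat.beq x 0 || inB x || Nat.beq (fRoot forC x) 358) = true := by decide +kernel

theorem forK_ok : forestOk genK forK = true := by decide +kernel

theorem genK_fix : genK.all (fun k => Nat.beq (ev k 358) 358) = true := by decide +kernel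

theorem sizeK_ok : sizesOk forK rootsK sizeK = true := by decide +kernel

theorem rootsK_ok : all4060 (fun x => forceNat (fRoot forK x) fun r =>
    bif Nat.beq x 0 || inB x then !(memB rootsK r) else memB rootsK r) = true := by decide +kernel

theorem special_ok : (codeOk tC && codeOk fC && codeOk nC && codeOk sC && codeOk qC && !(inB 358) &&
    !(inB 604) && !(inB 1666) && Nat.beq (codeA fC) 2305) = true := by
  decide +kernel

theorem order_ok : (baseEq (iterPt (ev tC) 13) (fun b => b) && !(baseEq (ev tC) (fun b => b)) &&
    baseEq (iterPt (ev fC) 4) (fun b => b) && !(baseEq (iterPt (ev fC) 2) (fun b => b)) &&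
    baseEq (iterPt (ev sC) 5) (fun b => b) && !(baseEq (ev sC) (fun b => b))) = true := by decide +kernel

theorem conj_ok : (baseEq (fun b => ev fC (ev tC (evI fC b))) (iterPt (ev tC) eF) &&
    baseEq (fun b => ev nC (ev tC (evI nC b))) (iterPt (ev tC) eN) &&
    Nat.beq (ev nC 358) 604 && Nat.beq (ev nC 604) 1666 && fixT.all (fun c => Nat.beq (ev fC c) c)) = true := by
  decide +kernel

theorem fixT_ok : all4060 (fun x => forceNat x fun x =>
    sameB (Nat.beq (ev tC x) x) (Nat.beq x 0 || memB fixT x)) = true := by decide +kernel

theorem conjT_ok : (Nat.beq conjT.length 41 && conjT.all (fun k => codeOk k && Nat.beq (ev k 358) 358) &&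
    allFrom (fun i => allFrom (fun j => Nat.beq i j ||
      forceNat (ev (getN conjT j) 604) (fun u => forceNat (ev (getN conjT j) 1666) fun v =>
        forceNat (ev (getN conjT i) 604) fun w => !(Nat.beq w u || Nat.beq w v) ||
        forceNat (ev (getN conjT i) 1666) fun w' => !(Nat.beq w' u || Nat.beq w' v))) 41 0) 41 0) = true := by
  decide +kernel

theorem fixF_ok : all4060 (fun x => forceNat x fun x =>
    !(inB x && Nat.beq (ev fC x) x) || memB fixF x) = true := by decide +kernel

theorem cs20_ok : (all4060 (fun x => Nat.beq (Ctx.rank gLev3 x) 0 || memB cs20 x) &&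
    allFrom (fun i => Nat.blt (getN cs20 i) 4060 && !(Nat.beq (Ctx.rank gLev3 (getN cs20 i)) 0) &&
      Nat.beq (stepUp gLev3 (getN cs20 i) (ev fC 2306)) (getN ws20 i)) 20 0 &&
    Nat.beq cs20.length 20) = true := by decide +kernel

theorem candPos_ok : all4060 (fun b => forceNat b fun b => Nat.beq (Ctx.rank gLev2 b) 0 ||
    fixF.all fun a => candScan a b (ev fC)) = true := by decide +kernel

theorem candNeg_ok : all4060 (fun b => forceNat b fun b => Nat.beq (Ctx.rank gLev2 b) 0 ||
    fixF.all fun a => candScan a b (evI fC)) = true := by decide +kernel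

theorem solsF_ok : solsF.all (fun e => codeOk e.1 && baseEq (ev e.1) (iterPt (ev fC) e.2)) = true := by
  decide +kernel

theorem solsFix_ok : solsFix.all (fun e => codeOk e.1 && Nat.blt e.2 3 &&
    Nat.beq (ev e.1 (getN fixT e.2)) (getN fixT e.2)) = true := by decide +kernel

theorem solsOrb_ok : solsOrb.all orbOk = true := by decide +kernel

theorem fixQ_ok : (all4060 (fun x => forceNat x fun x =>
      sameB (Nat.beq (ev sC x) x && Nat.beq (ev qC x) x) (memB fixQ x) &&
      sameB (Nat.beq (ev sC x) x) (memB fixQ x || memB fourS x) &&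
      sameB (memB extQ x) (memB fixQ x && !(memB [0, 2305, 2306] x))) &&
    cs20.all (fun c => fixQ.all fun x => Nat.beq (ev (qCode c) x) x) &&
    Nat.beq (codeA sC) 2305 && Nat.beq (codeB sC) 2306 && Nat.beq (codeA qC) 2305 && Nat.beq (codeB qC) 2306) = true := by
  decide +kernel

theorem fiveQ_ok : cs20.all (fun c => forceNat (qCode c) fun k =>
    !(baseEq (iterPt (ev k) 5) (fun b => b)) ||
      (baseEq (ev k) (fun b => b) || baseEq (ev k) (iterPt (ev sC) 1) || baseEq (ev k) (iterPt (ev sC) 2) ||
        baseEq (ev k) (iterPt (ev sC) 3) || baseEq (ev k) (iterPt (ev sC) 4))) = true := by decide +kernel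

theorem moveX_ok : fourS.all (fun z => cs20.any fun c => Nat.beq (ev (qCode c) x0) z) = true := by decide +kernel

theorem rowList_ok : rowListOk rowList = true := by decide +kernel

theorem farB_ok : all4060 (fun x => !(inB x) || Nat.beq x 2305 || inRow row2305 x ||
    Nat.beq (fRoot forP x) 2306) = true := by decide +kernel

theorem adj_facts : (inRow row0 2305 && !(inRow row2305 2305) && inRow row2305 0) = true := by decide +kernel

theorem count358_ok : Nat.beq (countFrom (fun x => !(Nat.beq x 0) && !(inB x) && inRow row358 x) 4060 0) 975 = true := by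
  decide +kernel

theorem ptsW2_eq : ptsW2 = ptsW1 ++ cls1Keys.map Prod.snd := by decide +kernel

theorem sets_ok : (setsOk ptsW1 rowsW1 && setsOk ptsW2 rowsW2 && setsOk ptsW3 rowsW3 && setsOk ptsW4 rowsW4 &&
    setsOk ptsW5 rowsW5) = true := by decide +kernel

theorem cls1_ok : classesOk rowsW1 cls1Keys = true := by decide +kernel

theorem key2_ok : (classesOk rowsW2 [(key2, orbY)] &&
    orbY.all (fun z => allFrom (fun j => !(Nat.beq (iterPt (ev sC) j y5) z)) 5 0 == false)) = true := by decide +kernel

theorem single3_ok : singlesOk rowsW3 single3 = true := by decide +kernel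

theorem single4_ok : singlesOk rowsW4 single4 = true := by decide +kernel

theorem order5_ok : orderOk rowsW5 keyOrd keyPos = true := by decide +kernel

end Cfsg.Agent.H12.RuRec
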