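import Cfsg.Agent.H56.RuTits.RuSimple

/-!
The elements of the stabiliser of the first point in the Rudvalis permutation group, named by the
images of three base points, and evaluated through the stored transversals.
-/

set_option autoImplicit false
set_option maxRecDepth 100000

open Equiv Cfsg.Agent.H16 Cfsg.Agent.H36 Cfsg.Agent.H36.AutEngine Cfsg.Agent.H56.RuTits

namespace Cfsg.Agent.H12.RuRec

noncomputable section

/-- The first coordinate of a code. -/
noncomputable def codeA (k : ℕ) : ℕ := bitField k 0 12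

/-- The second coordinate of a code. -/
noncomputable def codeB (k : ℕ) : ℕ := bitField k 12 12

/-- The third coordinate of a code. -/
noncomputable def codeC (k : ℕ) : ℕ := bitField k 24 12

/-- The stored transversal element of a level applied to a point. -/
noncomputable def stepUp (L : Level) (t x : ℕ) : ℕ :=
  forceNat (Ctx.rank L t) fun r => redo ctxG L r t x

/-- Its inverse applied to a point. -/
noncomputable def stepDn (L : Level) (t x : ℕ) : ℕ :=
  forceNat (Ctx.rank L t) fun r => ctxG.undo L r t x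

/-- The element of a code applied to a point. -/
noncomputable def ev (k x : ℕ) : ℕ :=
  forceNat (stepUp gLev3 (codeC k) x) fun y => forceNat (stepUp gLev2 (codeB k) y) fun z =>
    stepUp gLev1 (codeA k) z

/-- The inverse of the element of a code applied to a point. -/
noncomputable def evI (k x : ℕ) : ℕ :=
  forceNat (stepDn gLev1 (codeA k) x) fun y => forceNat (stepDn gLev2 (codeB k) y) fun z =>
    stepDn gLev3 (codeC k) z

/-- A code is valid. -/
noncomputable def codeOk (k : ℕ) : Bool :=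
  Nat.blt (codeA k) 4060 && Nat.blt (codeB k) 4060 && Nat.blt (codeC k) 4060 &&
    !(Nat.beq (Ctx.rank gLev1 (codeA k)) 0) && !(Nat.beq (Ctx.rank gLev2 (codeB k)) 0) &&
    !(Nat.beq (Ctx.rank gLev3 (codeC k)) 0)

theorem code_fields {a b c : ℕ} (ha : a < 4060) (hb : b < 4060) (hc : c < 4060) :
    codeA (a + 4096 * (b + 4096 * c)) = a ∧ codeB (a + 4096 * (b + 4096 * c)) = b ∧
      codeC (a + 4096 * (b + 4096 * c)) = c := by
  have h : ∀ x off : ℕ, bitField x off 12 = x / 2 ^ off % 4096 := fun x off => by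
    show (x >>> off) &&& (4096 - 1) = _
    rw [Nat.shiftRight_eq_div_pow]
    exact Nat.and_two_pow_sub_one_eq_mod _ 12
  simp only [codeA, codeB, codeC, h]
  norm_num
  omega

/-- A point from a number. -/
def pt (x : ℕ) : Fin 4060 := ⟨x % 4060, Nat.mod_lt _ (by omega)⟩

theorem pt_val {x : ℕ} (h : x < 4060) : ((pt x : Fin 4060) : ℕ) = x := Nat.mod_eq_of_lt h

theorem pt_self (x : Fin 4060) : pt x = x := Fin.ext (Nat.mod_eq_of_lt x.2)

/-- A transversal element as a permutation of the 4060 points. -/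
def tv (L : Level) (t : ℕ) : Perm (Fin 4060) := trv (D := ctxG) sigG L (pt t)

/-- The element of a code. -/
def el (k : ℕ) : Perm (Fin 4060) :=
  tv gLev1 (codeA k) * tv gLev2 (codeB k) *
    tv gLev3 (codeC k)

/-- The stabiliser of the first point. -/
def Tg : Subgroup (Perm (Fin 4060)) := ruPerm ⊓ MulAction.stabilizer (Perm (Fin 4060)) (0 : Fin 4060)

theorem mem_Tg {g : Perm (Fin 4060)} : g ∈ Tg ↔ g ∈ ruPerm ∧ g 0 = 0 := Iff.rfl

theorem levels_split : ctxG.levelOk [] gLev0 = true ∧ ctxG.levelOk [0] gLev1 = true ∧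
    ctxG.levelOk [2305, 0] gLev2 = true ∧ ctxG.levelOk [2306, 2305, 0] gLev3 = true := by
  have h : (ctxG.levelOk [] gLev0 && (ctxG.levelOk [0] gLev1 && (ctxG.levelOk [2305, 0] gLev2 &&
      (ctxG.levelOk [2306, 2305, 0] gLev3 && true)))) = true := levelsG_ok
  simp only [Bool.and_eq_true, and_true] at h
  exact h

theorem step_spec {L : Level} {prev : List ℕ} (hL : ctxG.levelOk prev L = true) {t : ℕ}
    (ht : t < 4060) (hr : Ctx.rank L t ≠ 0) :
    tv L t ∈ ruPerm ∧
      (∀ b : Fin 4060, (b : ℕ) = L.b → tv L t b = pt t) ∧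
      (∀ b : Fin 4060, (b : ℕ) ∈ prev → tv L t b = b) ∧
      (∀ y : Fin 4060, ((tv L t y : Fin 4060) : ℕ) = stepUp L t y) ∧
      ∀ y : Fin 4060, (((tv L t)⁻¹ y : Fin 4060) : ℕ) = stepDn L t y := by
  have e : ((pt t : Fin 4060) : ℕ) = t := pt_val ht
  obtain ⟨⟨hK, hb, hu, hd⟩, hp⟩ := trv_spec sigG sigG_rep slpG_ok hL (t := pt t) (e.symm ▸ hr)
  refine ⟨closure_sigG.le ((Subgroup.closure_le _).2 (fun g hg => hg.1) hK), hb, hp,
    fun y => ?_, fun y => ?_⟩
  · rw [stepUp, forceNat_eq]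
    exact (hu y).trans (by rw [e])
  · rw [stepDn, forceNat_eq]
    exact (hd y).trans (by rw [e])

theorem codeOk_spec {k : ℕ} (h : codeOk k = true) :
    (codeA k < 4060 ∧ Ctx.rank gLev1 (codeA k) ≠ 0) ∧ (codeB k < 4060 ∧ Ctx.rank gLev2 (codeB k) ≠ 0) ∧
      (codeC k < 4060 ∧ Ctx.rank gLev3 (codeC k) ≠ 0) := by
  simp only [codeOk, Bool.and_eq_true, Nat.blt_eq, Bool.not_eq_true'] at h
  obtain ⟨⟨⟨⟨⟨a, b⟩, c⟩, ra⟩, rb⟩, rc⟩ := h
  exact ⟨⟨a, fun e => by simp [e] at ra⟩, ⟨b, fun e => by simp [e] at rb⟩, c, fun e => by simp [e] at rc⟩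

theorem el_spec {k : ℕ} (h : codeOk k = true) :
    el k ∈ Tg ∧ (∀ x : Fin 4060, ((el k x : Fin 4060) : ℕ) = ev k x) ∧
      (∀ x : Fin 4060, (((el k)⁻¹ x : Fin 4060) : ℕ) = evI k x) ∧ el k (pt 2305) = pt (codeA k) := by
  obtain ⟨⟨a, ra⟩, ⟨b, rb⟩, c, rc⟩ := codeOk_spec h
  obtain ⟨-, l1, l2, l3⟩ := levels_split
  obtain ⟨m1, b1, f1, u1, d1⟩ := step_spec l1 a ra
  obtain ⟨m2, b2, f2, u2, d2⟩ := step_spec l2 b rb
  obtain ⟨m3, b3, f3, u3, d3⟩ := step_spec l3 c rc
  refine ⟨⟨ruPerm.mul_mem (ruPerm.mul_mem m1 m2) m3, ?_⟩, fun x => ?_, fun x => ?_, ?_⟩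
  · show el k (0 : Fin 4060) = 0
    simp only [el, Perm.mul_apply]
    rw [f3 0 (by simp), f2 0 (by simp), f1 0 (by simp)]
  · simp only [el, Perm.mul_apply, ev, forceNat_eq]
    rw [u1, u2, u3]
  · simp only [el, mul_inv_rev, Perm.mul_apply, evI, forceNat_eq]
    rw [d3, d2, d1]
  · simp only [el, Perm.mul_apply]
    rw [f3 (pt 2305) (by simp [pt_val]), f2 (pt 2305) (by simp [pt_val]), b1 (pt 2305) (pt_val (by omega))]

variable (hcard : Nat.card ruPerm = 145926144000)

include hcard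

theorem card_Tg : Nat.card Tg = 35942400 := by
  rw [← card_stab hcard]
  exact Nat.card_congr
    { toFun := fun g => ⟨⟨g.1, g.2.1⟩, g.2.2⟩
      invFun := fun g => ⟨g.1.1, g.1.2, g.2⟩ }

theorem prod_eq : ctxG.prodCnt levelsG = Nat.card (Subgroup.closure (Set.range sigG)) := by
  rw [prodG, ← hcard]
  exact congrArg (fun H : Subgroup (Perm (Fin 4060)) => Nat.card H) closure_sigG.symm

/-- An element fixing the first point is determined by three images. -/
theorem eq_of_base {g g' : Perm (Fin 4060)} (hg : g ∈ Tg) (hg' : g' ∈ Tg)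
    (h1 : g (pt 2305) = g' (pt 2305)) (h2 : g (pt 2306) = g' (pt 2306))
    (h3 : g (pt 2308) = g' (pt 2308)) : g = g' := by
  refine Ctx.eq_of_base sigG sigG_rep slpG_ok levelsG_ok (prod_eq hcard) (closure_sigG.ge hg.1)
    (closure_sigG.ge hg'.1) fun x hx => ?_
  have hx' : (x : ℕ) ∈ [0, 2305, 2306, 2308] := hx
  simp only [List.mem_cons, List.not_mem_nil, or_false] at hx'
  rcases hx' with e | e | e | e
  · obtain rfl : x = (0 : Fin 4060) := Fin.ext e
    exact hg.2.trans hg'.2.symm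
  all_goals
    have hx2 : x = pt x := (pt_self x).symm
    rw [e] at hx2
    subst hx2
    assumption

theorem el_eq_of_images {g : Perm (Fin 4060)} (hg : g ∈ Tg) {k : ℕ} (hk : codeOk k = true)
    (h : ∀ b : Fin 4060, (b : ℕ) ∈ [2305, 2306, 2308] → ((g b : Fin 4060) : ℕ) = ev k b) : g = el k := by
  obtain ⟨hm, he, -, -⟩ := el_spec hk
  have h' : ∀ n, n ∈ [2305, 2306, 2308] → n < 4060 → g (pt n) = el k (pt n) := fun n hn hlt =>
    Fin.ext (by rw [h (pt n) (by rwa [pt_val hlt]), he])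
  exact eq_of_base hcard hg hm (h' 2305 (by simp) (by omega)) (h' 2306 (by simp) (by omega))
    (h' 2308 (by simp) (by omega))

/-- Every element fixing the first point has a code. -/
theorem exists_code {g : Perm (Fin 4060)} (hg : g ∈ Tg) : ∃ k, codeOk k = true ∧ g = el k := by
  obtain ⟨-, l1, l2, l3⟩ := levels_split
  have hs := Ctx.sift_complete sigG sigG_rep slpG_ok levelsG_ok (prod_eq hcard) (closure_sigG.ge hg.1)
    (fun x => ((g (pt x) : Fin 4060) : ℕ)) fun x => congrArg (fun z : Fin 4060 => ((g z : Fin 4060) : ℕ)) (pt_self x)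
  set a := ((g (pt 2305) : Fin 4060) : ℕ) with ha
  have ha' : a < 4060 := Fin.isLt _
  have h0 : ((g (pt 0) : Fin 4060) : ℕ) = 0 := congrArg Fin.val hg.2
  have hroot : Ctx.rank gLev0 0 = 1 := by decide +kernel
  have hund : ∀ y, ctxG.undo gLev0 1 0 y = y := fun y => rfl
  change (forceNat (Ctx.rank gLev0 ((g (pt 0) : Fin 4060) : ℕ)) fun r => bif Nat.beq r 0 then false else
    ctxG.sift [gLev1, gLev2, gLev3] ([((g (pt 2305) : Fin 4060) : ℕ), ((g (pt 2306) : Fin 4060) : ℕ),
      ((g (pt 2308) : Fin 4060) : ℕ)].map fun y => ctxG.undo gLev0 r ((g (pt 0) : Fin 4060) : ℕ) y)) = true at hs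
  rw [forceNat_eq, h0, hroot] at hs
  simp only [List.map_cons, List.map_nil, hund] at hs
  change (forceNat (Ctx.rank gLev1 a) fun r => bif Nat.beq r 0 then false else
    (forceNat (Ctx.rank gLev2 (ctxG.undo gLev1 r a (g (pt 2306) : Fin 4060))) fun r' => bif Nat.beq r' 0 then false else
      (forceNat (Ctx.rank gLev3 (ctxG.undo gLev2 r' (ctxG.undo gLev1 r a (g (pt 2306) : Fin 4060))
        (ctxG.undo gLev1 r a (g (pt 2308) : Fin 4060)))) fun r'' => bif Nat.beq r'' 0 then false else true))) = true at hs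
  simp only [forceNat_eq] at hs
  rcases hr1 : Nat.beq (Ctx.rank gLev1 a) 0 with _ | _
  swap
  · simp [hr1] at hs
  rw [hr1, cond_false] at hs
  have hra : Ctx.rank gLev1 a ≠ 0 := fun e => by simp [e] at hr1
  set b := ctxG.undo gLev1 (Ctx.rank gLev1 a) a (g (pt 2306) : Fin 4060) with hbdef
  rcases hr2 : Nat.beq (Ctx.rank gLev2 b) 0 with _ | _
  swap
  · simp [hr2] at hs
  rw [hr2, cond_false] at hs
  have hrb : Ctx.rank gLev2 b ≠ 0 := fun e => by simp [e] at hr2
  set u2 := ctxG.undo gLev1 (Ctx.rank gLev1 a) a (g (pt 2308) : Fin 4060) with hu2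
  set c := ctxG.undo gLev2 (Ctx.rank gLev2 b) b u2 with hcdef
  rcases hr3 : Nat.beq (Ctx.rank gLev3 c) 0 with _ | _
  swap
  · simp [hr3] at hs
  have hrc : Ctx.rank gLev3 c ≠ 0 := fun e => by simp [e] at hr3
  obtain ⟨m1, b1, f1, -, d1⟩ := step_spec l1 ha' hra
  have hb' : b < 4060 := by
    have := d1 (g (pt 2306))
    rw [stepDn, forceNat_eq, ← hbdef] at this
    exact this ▸ Fin.isLt _
  obtain ⟨m2, b2, f2, -, d2⟩ := step_spec l2 hb' hrb
  set g1 := (tv gLev1 a)⁻¹ * g with hg1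
  have e1 : g1 (pt 2306) = pt b := by
    refine Fin.ext ?_
    rw [pt_val hb', hg1, Perm.mul_apply, d1, stepDn, forceNat_eq]
  have e2 : ((g1 (pt 2308) : Fin 4060) : ℕ) = u2 := by
    rw [hg1, Perm.mul_apply, d1, stepDn, forceNat_eq]
  have hc' : c < 4060 := by
    have := d2 (g1 (pt 2308))
    rw [stepDn, forceNat_eq, e2, ← hcdef] at this
    exact this ▸ Fin.isLt _
  obtain ⟨m3, b3, f3, -, -⟩ := step_spec l3 hc' hrc
  refine ⟨a + 4096 * (b + 4096 * c), ?_⟩
  have cA : codeA (a + 4096 * (b + 4096 * c)) = a := code_fields ha' hb' hc' |>.1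
  have cB : codeB (a + 4096 * (b + 4096 * c)) = b := code_fields ha' hb' hc' |>.2.1
  have cC : codeC (a + 4096 * (b + 4096 * c)) = c := code_fields ha' hb' hc' |>.2.2
  have hok : codeOk (a + 4096 * (b + 4096 * c)) = true := by
    simp only [codeOk, cA, cB, cC, Bool.and_eq_true, Nat.blt_eq, Bool.not_eq_true']
    exact ⟨⟨⟨⟨⟨ha', hb'⟩, hc'⟩, hr1⟩, hr2⟩, hr3⟩
  refine ⟨hok, eq_of_base hcard hg (el_spec hok).1 ?_ ?_ ?_⟩
  · rw [(el_spec hok).2.2.2, cA]
    exact (pt_self _).symm.trans (congrArg pt ha.symm)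
  · have : el (a + 4096 * (b + 4096 * c)) (pt 2306) = tv gLev1 a (pt b) := by
      simp only [el, cA, cB, cC, Perm.mul_apply]
      rw [f3 (pt 2306) (by simp [pt_val]), b2 (pt 2306) (pt_val (by omega))]
    rw [this, ← e1, hg1, Perm.mul_apply]
    exact ((tv gLev1 a).apply_symm_apply _).symm
  · have h3 : tv gLev3 c (pt 2308) = pt c := b3 (pt 2308) (pt_val (by omega))
    have e3 : (tv gLev2 b)⁻¹ (g1 (pt 2308)) = pt c := by
      refine Fin.ext ?_
      rw [pt_val hc', d2, stepDn, forceNat_eq, e2]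
    simp only [el, cA, cB, cC, Perm.mul_apply, h3]
    rw [← e3, hg1, Perm.mul_apply]
    simp

end

end Cfsg.Agent.H12.RuRec
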