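import Cfsg.Agent.H12.RuRec.Base
import Cfsg.Agent.H12.RuRec.IsoData
import Cfsg.Agent.H55.Tits.Simple

/-!
The stabiliser of a point in the Rudvalis permutation group is the twisted group of type F₄ over the
field with two elements: both act alike on 1755 points.
-/

set_option autoImplicit false
set_option maxRecDepth 100000
set_option linter.unusedSectionVars false

open Equiv Cfsg.Agent.H16 Cfsg.Agent.H36 Cfsg.Agent.H36.AutEngine Cfsg.Agent.H56.RuTits
open Cfsg.Agent.H55.Tits (F4two gen litRows app vec idx RowsOf)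
open scoped Matrix commutatorElement

namespace Cfsg.Agent.H12.RuRec.Iso

noncomputable section

/-- An entry of a packed table. -/
noncomputable def cell (w tab i : ℕ) : ℕ :=
  Nat.land (Nat.shiftRight tab (Nat.mul w i)) (Nat.sub (2 ^ w) 1)

/-- The vector of a point. -/
noncomputable def vAt (x : ℕ) : ℕ := cell 52 vecTab x

/-- The check of one generator at one point. -/
noncomputable def moveOk (R : List ℕ) (c x : ℕ) : Bool :=
  !(inB x) || Nat.beq (app R (vAt x)) (forceNat (evI c x) fun y => vAt y)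

theorem codes_ok : isoCodes.all codeOk = true ∧ isoCodes.length = 4 := by decide +kernel

theorem move0 : all4060 (moveOk (litRows 0) (getN isoCodes 0)) = true := by decide +kernel
theorem move1 : all4060 (moveOk (litRows 1) (getN isoCodes 1)) = true := by decide +kernel
theorem move2 : all4060 (moveOk (litRows 2) (getN isoCodes 2)) = true := by decide +kernel
theorem move3 : all4060 (moveOk (litRows 3) (getN isoCodes 3)) = true := by decide +kernel

theorem pos_ok : all4060 (fun x => !(inB x) ||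
    forceNat (cell 12 posTab x) (fun i => Nat.blt i 1755 && Nat.beq (cell 12 srtTab i) x)) = true := by
  decide +kernel

theorem srt_ok : allFrom (fun i => Nat.blt (vAt (cell 12 srtTab i)) (vAt (cell 12 srtTab (Nat.succ i)))) 1754 0
    = true := by decide +kernel

theorem base_ok : inB 2305 = true ∧ inB 2306 = true ∧ inB 2308 = true := by decide +kernel

theorem noncomm : Nat.beq (ev (getN isoCodes 0) (ev (getN isoCodes 1) 1))
    (ev (getN isoCodes 1) (ev (getN isoCodes 0) 1)) = false := by decide +kernel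

theorem code_ok (j : ℕ) (hj : j < 4) : codeOk (getN isoCodes j) = true :=
  List.all_eq_true.1 codes_ok.1 _ (getN_mem _ (by rw [codes_ok.2]; exact hj))

theorem vAt_lt (x : ℕ) : vAt x < 2 ^ 52 := by
  have h : vAt x ≤ 2 ^ 52 - 1 := Nat.and_le_right
  omega

theorem vAt_inj {x y : Fin 4060} (hx : IsB x) (hy : IsB y) (h : vAt x = vAt y) : x = y := by
  have hp : ∀ z : Fin 4060, IsB z → cell 12 posTab z < 1755 ∧ cell 12 srtTab (cell 12 posTab z) = z := fun z hz => by
    have := all4060_spec pos_ok z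
    simp only [forceNat_eq, show inB (z : ℕ) = true from hz, Bool.not_true, Bool.false_or, Bool.and_eq_true,
      Nat.blt_eq] at this
    exact ⟨this.1, Nat.eq_of_beq_eq_true this.2⟩
  set K : ℕ → ℕ := fun i => vAt (cell 12 srtTab i)
  have hstep : ∀ i, i < 1754 → K i < K (i + 1) := fun i hi => by
    have := allFrom_spec srt_ok i (Nat.zero_le _) (by omega)
    simp only [Nat.blt_eq] at this
    exact this
  have hmono : ∀ i j, i < j → j < 1755 → K i < K j := by
    intro i j hij
    induction j with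
    | zero => omega
    | succ j ih =>
      intro hj
      rcases Nat.eq_or_lt_of_le (Nat.le_of_lt_succ hij) with rfl | h'
      · exact hstep i (by omega)
      · exact lt_trans (ih h' (by omega)) (hstep j (by omega))
  obtain ⟨a1, a2⟩ := hp x hx
  obtain ⟨b1, b2⟩ := hp y hy
  rcases lt_trichotomy (cell 12 posTab (x : ℕ)) (cell 12 posTab (y : ℕ)) with c | c | c
  · have := hmono _ _ c b1
    simp only [K, a2, b2, h] at this
    omega
  · exact Fin.ext (by rw [← a2, c, b2])
  · have := hmono _ _ c a1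
    simp only [K, a2, b2, h] at this
    omega

variable (hcard : Nat.card ruPerm = 145926144000)

include hcard

omit hcard in
/-- Acting alike. -/
def Rel (g : GL Cfsg.Lie.chevF4.Idx (ZMod 2)) (h : Perm (Fin 4060)) : Prop :=
  ∀ x : Fin 4060, IsB x →
    vec idx (vAt x) ᵥ* (g : Matrix Cfsg.Lie.chevF4.Idx Cfsg.Lie.chevF4.Idx (ZMod 2)) =
      vec idx (vAt ((h⁻¹ x : Fin 4060) : ℕ))

omit hcard in
theorem rel_one : Rel 1 1 := fun x _ => by simp

theorem rel_mul {a b : GL Cfsg.Lie.chevF4.Idx (ZMod 2)} {u w : Perm (Fin 4060)} (hu : u ∈ Tg)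
    (ha : Rel a u) (hb : Rel b w) : Rel (a * b) (u * w) := fun x hx => by
  rw [Units.val_mul, mul_inv_rev, Perm.mul_apply, ← Matrix.vecMul_vecMul, ha x hx,
    hb _ (isB_apply hcard (Tg.inv_mem hu) hx)]

theorem rel_inv {a : GL Cfsg.Lie.chevF4.Idx (ZMod 2)} {u : Perm (Fin 4060)} (hu : u ∈ Tg)
    (ha : Rel a u) : Rel a⁻¹ u⁻¹ := fun x hx => by
  have h := ha _ (isB_apply hcard hu hx)
  rw [show u⁻¹ (u x) = x from u.symm_apply_apply x] at h
  rw [inv_inv, ← h, Matrix.vecMul_vecMul, ← Units.val_mul, mul_inv_cancel, Units.val_one, Matrix.vecMul_one]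

omit hcard in
theorem rel_gen {i : Fin 8} {j : Fin 4} (he : litRows j = H55.Tits.genRows i)
    (hm : all4060 (moveOk (litRows j) (getN isoCodes j)) = true) :
    Rel (H55.Tits.gl i) (el (getN isoCodes j)) := by
  intro x hx
  have hR : RowsOf idx (H55.Tits.mat i) (litRows j) := he.symm ▸ H55.Tits.rowsOf_mat i
  have h := all4060_spec hm x
  simp only [moveOk, forceNat_eq, show inB (x : ℕ) = true from hx, Bool.not_true, Bool.false_or] at h
  rw [H55.Tits.gl_coe, hR.vecMul, Nat.eq_of_beq_eq_true h, ← (el_spec (code_ok j j.2)).2.2.1 x]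

/-- The pairs acting alike. -/
def graphGroup : Subgroup (↥F4two × ↥Tg) where
  carrier := {p | Rel p.1.1 p.2.1}
  one_mem' := rel_one
  mul_mem' {p q} hp hq := rel_mul hcard p.2.2 hp hq
  inv_mem' {p} hp := rel_inv hcard p.2.2 hp

theorem mem_graph {g : ↥F4two} {h : ↥Tg} : (g, h) ∈ graphGroup hcard ↔ Rel g.1 h.1 := Iff.rfl

theorem gen_pair {i : Fin 8} {j : Fin 4} (he : litRows j = H55.Tits.genRows i)
    (hm : all4060 (moveOk (litRows j) (getN isoCodes j)) = true) :
    (gen i, (⟨el (getN isoCodes j), (el_spec (code_ok j j.2)).1⟩ : ↥Tg)) ∈ graphGroup hcard := by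
  rw [mem_graph, H55.Tits.gen_val]
  exact rel_gen he hm

theorem fst_surj (g : ↥F4two) : ∃ h : ↥Tg, (g, h) ∈ graphGroup hcard := by
  obtain ⟨l0, l1, l2, l3⟩ := H55.Tits.litRows_eq
  have hsub : ∀ i : Fin 8, gen i ∈ (graphGroup hcard).map (MonoidHom.fst _ _) :=
    H55.Tits.gen_mem_of ⟨_, gen_pair hcard (j := 0) l0 move0, rfl⟩ ⟨_, gen_pair hcard (j := 1) l1 move1, rfl⟩
      ⟨_, gen_pair hcard (j := 2) l2 move2, rfl⟩ ⟨_, gen_pair hcard (j := 3) l3 move3, rfl⟩
  have htop : (graphGroup hcard).map (MonoidHom.fst _ _) = ⊤ := by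
    rw [eq_top_iff, ← H55.Tits.closure_gen, Subgroup.closure_le]
    rintro _ ⟨i, rfl⟩
    exact hsub i
  obtain ⟨⟨g', h⟩, hp, e⟩ : g ∈ (graphGroup hcard).map (MonoidHom.fst _ _) := htop ▸ Subgroup.mem_top g
  change g' = g at e
  subst e
  exact ⟨h, hp⟩

theorem snd_unique {g : ↥F4two} {h h' : ↥Tg} (hh : (g, h) ∈ graphGroup hcard) (hh' : (g, h') ∈ graphGroup hcard) :
    h = h' := by
  have key : ∀ x : Fin 4060, IsB x → h.1⁻¹ x = h'.1⁻¹ x := fun x hx => by
    refine vAt_inj (isB_apply hcard (Tg.inv_mem h.2) hx) (isB_apply hcard (Tg.inv_mem h'.2) hx) ?_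
    exact H55.Tits.vec_injOn (vAt_lt _) (vAt_lt _) (((mem_graph hcard).1 hh x hx).symm.trans ((mem_graph hcard).1 hh' x hx))
  obtain ⟨b1, b2, b3⟩ := base_ok
  have hb : ∀ n, n < 4060 → inB n = true → IsB (pt n) := fun n hn h => by rw [IsB, pt_val hn]; exact h
  have e := eq_of_base hcard (Tg.inv_mem h.2) (Tg.inv_mem h'.2) (key _ (hb _ (by omega) b1))
    (key _ (hb _ (by omega) b2)) (key _ (hb _ (by omega) b3))
  exact Subtype.ext (inv_injective e)

theorem snd_one {h : ↥Tg} (hh : ((1 : ↥F4two), h) ∈ graphGroup hcard) : h = 1 := by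
  refine snd_unique hcard hh ((mem_graph hcard).2 ?_)
  rw [Subgroup.coe_one, Subgroup.coe_one]
  exact rel_one

theorem snd_mul {g g' : ↥F4two} {a b c : ↥Tg} (ha : (g, a) ∈ graphGroup hcard) (hb : (g', b) ∈ graphGroup hcard)
    (hc : (g * g', c) ∈ graphGroup hcard) : c = a * b := by
  refine snd_unique hcard hc ((mem_graph hcard).2 ?_)
  rw [Subgroup.coe_mul, Subgroup.coe_mul]
  exact rel_mul hcard a.2 ((mem_graph hcard).1 ha) ((mem_graph hcard).1 hb)

/-- The image. -/
def iotaFun (g : ↥F4two) : ↥Tg := Classical.choose (fst_surj hcard g)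

theorem iotaFun_spec (g : ↥F4two) : (g, iotaFun hcard g) ∈ graphGroup hcard :=
  Classical.choose_spec (fst_surj hcard g)

/-- The homomorphism. -/
def iota : ↥F4two →* ↥Tg :=
  MonoidHom.mk' (iotaFun hcard) fun g g' =>
    snd_mul hcard (iotaFun_spec hcard g) (iotaFun_spec hcard g') (iotaFun_spec hcard (g * g'))

theorem iota_gen {i : Fin 8} {j : Fin 4} (he : litRows j = H55.Tits.genRows i)
    (hm : all4060 (moveOk (litRows j) (getN isoCodes j)) = true) :
    (iota hcard (gen i)).1 = el (getN isoCodes j) :=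
  congrArg Subtype.val (snd_unique hcard (iotaFun_spec hcard (gen i)) (gen_pair hcard he hm))

omit hcard in
theorem injective_of_titsData {A B : Type*} [Group A] [Group B] {c₀ : A} (T : H55.Tits.TitsData A c₀)
    (f : A →* B) (a b : A) (h : f a * f b ≠ f b * f a) : Function.Injective f := by
  rw [← MonoidHom.ker_eq_bot_iff]
  by_contra hne
  have hle : commutator A ≤ f.ker := T.le_of_normal f.ker hne
  have h1 : ⁅a, b⁆ ∈ f.ker :=
    hle (Subgroup.commutator_mem_commutator (Subgroup.mem_top a) (Subgroup.mem_top b))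
  rw [MonoidHom.mem_ker, map_commutatorElement, commutatorElement_eq_one_iff_mul_comm] at h1
  exact h h1

theorem iota_injective : Function.Injective (iota hcard) := by
  refine injective_of_titsData H55.Tits.titsData (iota hcard) (gen 0) (gen 1) fun hc => ?_
  obtain ⟨l0, l1, -, -⟩ := H55.Tits.litRows_eq
  have h := congrArg Subtype.val hc
  rw [Subgroup.coe_mul, Subgroup.coe_mul, iota_gen hcard (j := 0) l0 move0, iota_gen hcard (j := 1) l1 move1] at h
  have hn := noncomm
  simp only [Bool.eq_false_iff, ne_eq, Nat.beq_eq] at hn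
  apply hn
  have hev : ∀ a b : ℕ, a < 4 → b < 4 → ev (getN isoCodes a) (ev (getN isoCodes b) 1) =
      (((el (getN isoCodes a) * el (getN isoCodes b)) (pt 1) : Fin 4060) : ℕ) := fun a b ha hb => by
    rw [Perm.mul_apply, el_val (code_ok a ha), el_val (code_ok b hb), pt_val (by omega : 1 < 4060)]
  rw [hev 0 1 (by omega) (by omega), hev 1 0 (by omega) (by omega)]
  exact congrArg (fun f : Perm (Fin 4060) => ((f (pt 1) : Fin 4060) : ℕ)) h

/-- The stabiliser is the twisted group. -/
theorem exists_iso :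
    Nonempty (↥(Cfsg.Lie.twistedF4 (ZMod 2) 1) ≃* ↥(ruPerm ⊓ MulAction.stabilizer (Perm (Fin 4060)) (0 : Fin 4060))) := by
  have hc : Nat.card ↥F4two = Nat.card ↥Tg := by
    rw [H55.Tits.card_F4two, card_Tg hcard]; norm_num
  have : Finite ↥Tg := Nat.finite_of_card_ne_zero (by rw [card_Tg hcard]; omega)
  exact ⟨MulEquiv.ofBijective (iota hcard)
    ((Nat.bijective_iff_injective_and_card _).2 ⟨iota_injective hcard, hc⟩)⟩

end

end Cfsg.Agent.H12.RuRec.Iso
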