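import Cfsg.Agent.H12.RuRec.Point

/-!
The graph of valency 1755 of a transitive group with the given point stabiliser is forced.
-/

set_option autoImplicit false
set_option maxRecDepth 100000
set_option linter.unusedSectionVars false

open scoped Pointwise
open Equiv Cfsg.Agent.H16 Cfsg.Agent.H36 Cfsg.Agent.H36.AutEngine Cfsg.Agent.H56.RuTits

namespace Cfsg.Agent.H12.RuRec

noncomputable section

theorem app_inv (g : Perm (Fin 4060)) (x : Fin 4060) : g (g⁻¹ x) = x := g.apply_symm_apply x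

/-- A transitive group with the given stabiliser of the first point. -/
structure Good (G : Subgroup (Perm (Fin 4060))) : Prop where
  /-- transitivity -/
  trans : ∀ x : Fin 4060, ∃ g ∈ G, g 0 = x
  /-- the stabiliser -/
  stab : ∀ g : Perm (Fin 4060), g ∈ Tg ↔ g ∈ G ∧ g 0 = 0

theorem good_ruPerm : Good ruPerm := by
  have hp := isPretransitive_ruPerm
  refine ⟨fun x => ?_, fun g => mem_Tg⟩
  obtain ⟨g, hg⟩ := MulAction.exists_smul_eq ruPerm (0 : Fin 4060) x
  exact ⟨g, g.2, hg⟩

/-- The orbital of the suborbit of 1755 points. -/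
def Adj (G : Subgroup (Perm (Fin 4060))) (z y : Fin 4060) : Prop := ∃ g ∈ G, g 0 = z ∧ IsB (g⁻¹ y)

/-- Points outside the suborbit of 1755 points, other than the first. -/
def IsC (x : Fin 4060) : Prop := x ≠ 0 ∧ ¬ IsB x

theorem exists_moveC {x : Fin 4060} (hx : IsC x) : ∃ g ∈ Tg, g (pt 358) = x := by
  have h := all4060_spec rootC_ok x
  simp only [show inB (x : ℕ) = false from Bool.eq_false_iff.2 hx.2, show Nat.beq (x : ℕ) 0 = false by
    simpa [Bool.eq_false_iff, Fin.val_eq_zero_iff] using hx.1, Bool.false_or] at h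
  have hg := forC_ok
  simp only [forestOk, Bool.and_eq_true, List.all_eq_true] at hg
  obtain ⟨-, -, g, hgm, e⟩ := forest_mem forC_ok (H := Tg) (fun k hk => (el_spec (hg.1 k hk)).1) x
  rw [Nat.eq_of_beq_eq_true h] at e
  exact ⟨g, hgm, e⟩

theorem isC_358 : IsC (pt 358) := by
  have h := special_ok
  simp only [Bool.and_eq_true, Bool.not_eq_true'] at h
  refine ⟨fun e => ?_, fun hb => ?_⟩
  · have := congrArg Fin.val e
    rw [pt_val (by omega)] at this
    simp at this
  · rw [IsB, pt_val (by omega), h.1.1.1.2] at hb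
    exact Bool.false_ne_true hb

theorem forP_gens : ∀ k ∈ genP, el k ∈ Pg := fun k hk => by
  have h := forP_ok
  simp only [forestOk, Bool.and_eq_true, List.all_eq_true] at h
  exact el_mem_Pg (h.1 k hk) (List.all_eq_true.1 genP_fix k hk)

theorem forK_gens : ∀ k ∈ genK, el k ∈ Tg ⊓ MulAction.stabilizer (Perm (Fin 4060)) (pt 358) := fun k hk => by
  have h := forK_ok
  simp only [forestOk, Bool.and_eq_true, List.all_eq_true] at h
  exact ⟨(el_spec (h.1 k hk)).1, el_fix (h.1 k hk) (by omega) (List.all_eq_true.1 genK_fix k hk)⟩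

/-- The possible sets of trees at the second point. -/
theorem eps_P : ∀ ε : Fin 8 → Bool, (∑ i, if ε i then ![1, 1280, 1024, 1, 1024, 10, 640, 80] i else 0) = 1755 →
    ε 0 = true → ε 3 = false → (∀ i, ε i = ![true, false, true, false, false, true, true, true] i) ∨
      ∀ i, ε i = ![true, false, false, false, true, true, true, true] i := by
  decide +kernel

/-- The possible sets of trees at the third point. -/
theorem eps_K : ∀ ε : Fin 6 → Bool, (∑ i, if ε i then ![300, 650, 975, 300, 78, 1] i else 0) = 975 →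
    ε 5 = false → ∀ i, ε i = ![false, false, true, false, false, false] i := by
  decide +kernel

theorem rootsP_inj : Function.Injective ![0, 1, 641, 2305, 2306, 3330, 3331, 3844] := by
  unfold Function.Injective; decide +kernel

theorem rootsK_inj : Function.Injective ![1, 3, 17, 65, 133, 358] := by
  unfold Function.Injective; decide +kernel

variable (hcard : Nat.card ruPerm = 145926144000)

namespace Good

variable {G : Subgroup (Perm (Fin 4060))} (hG : Good G)

include hG

theorem le : Tg ≤ G := fun g hg => ((hG.stab g).1 hg).1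

theorem adj_map {g : Perm (Fin 4060)} (hg : g ∈ G) {z y : Fin 4060} : Adj G (g z) (g y) ↔ Adj G z y := by
  constructor
  · rintro ⟨u, hu, e, hb⟩
    refine ⟨g⁻¹ * u, G.mul_mem (G.inv_mem hg) hu, by rw [Perm.mul_apply, e]; simp, ?_⟩
    simpa [mul_inv_rev] using hb
  · rintro ⟨u, hu, e, hb⟩
    refine ⟨g * u, G.mul_mem hg hu, by rw [Perm.mul_apply, e], ?_⟩
    simpa [mul_inv_rev] using hb

include hcard

theorem adj_iff {g : Perm (Fin 4060)} (hg : g ∈ G) (y : Fin 4060) : Adj G (g 0) y ↔ IsB (g⁻¹ y) := by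
  refine ⟨fun ⟨u, hu, e, hb⟩ => ?_, fun hb => ⟨g, hg, rfl, hb⟩⟩
  have h : g⁻¹ * u ∈ Tg := (hG.stab _).2 ⟨G.mul_mem (G.inv_mem hg) hu, by rw [Perm.mul_apply, e]; simp⟩
  have := isB_apply hcard h hb
  simpa using this

theorem adj_zero (y : Fin 4060) : Adj G 0 y ↔ IsB y := by
  have := hG.adj_iff hcard G.one_mem y
  simpa using this

theorem irrefl (z : Fin 4060) : ¬ Adj G z z := by
  obtain ⟨g, hg, rfl⟩ := hG.trans z
  rw [hG.adj_iff hcard hg]
  simpa using not_isB_zero

theorem ncard_out (z : Fin 4060) : {y | Adj G z y}.ncard = 1755 := by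
  obtain ⟨g, hg, rfl⟩ := hG.trans z
  have : {y | Adj G (g 0) y} = g '' {y | IsB y} := by
    ext y
    rw [Set.mem_setOf_eq, hG.adj_iff hcard hg, Equiv.image_eq_preimage_symm]
    rfl
  rw [this, Set.ncard_image_of_injective _ g.injective, ncard_isB hcard]

theorem ncard_in (y : Fin 4060) : {z | Adj G z y}.ncard = 1755 := by
  classical
  have hconst : ∀ y, {z | Adj G z y}.ncard = {z | Adj G z 0}.ncard := fun y => by
    obtain ⟨g, hg, rfl⟩ := hG.trans y
    have : {z | Adj G z (g 0)} = g '' {z | Adj G z 0} := by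
      ext z
      rw [Set.mem_setOf_eq, Equiv.image_eq_preimage_symm]
      show _ ↔ Adj G (g⁻¹ z) 0
      rw [← hG.adj_map hg (z := g⁻¹ z)]
      simp
    rw [this, Set.ncard_image_of_injective _ g.injective]
  rw [hconst]
  have h : ∑ z : Fin 4060, (Finset.univ.filter fun y => Adj G z y).card =
      ∑ y : Fin 4060, (Finset.univ.filter fun z => Adj G z y).card := by
    simp only [Finset.card_filter]
    exact Finset.sum_comm
  have e1 : ∀ z, (Finset.univ.filter fun y => Adj G z y).card = 1755 := fun z => by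
    rw [← Set.ncard_coe_finset, Finset.coe_filter]
    simpa using hG.ncard_out hcard z
  have e2 : ∀ y, (Finset.univ.filter fun z => Adj G z y).card = {z | Adj G z 0}.ncard := fun y => by
    rw [← hconst y, ← Set.ncard_coe_finset, Finset.coe_filter]
    simp
  simp only [e1, e2, Finset.sum_const, Finset.card_univ, Fintype.card_fin, smul_eq_mul] at h
  omega

theorem adj_back : Adj G (pt 2305) 0 := by
  classical
  by_contra hno
  have hB : ∀ z, IsB z → ¬ Adj G z 0 := fun z hz hadj => by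
    obtain ⟨t, ht, rfl⟩ := exists_moveB hcard hz
    have h0 : t 0 = 0 := ((hG.stab t).1 ht).2
    rw [← h0, hG.adj_map (hG.le ht)] at hadj
    exact hno hadj
  have hsub : {z | Adj G z 0} ⊆ {z | IsC z} := fun z hz =>
    ⟨fun e => hG.irrefl hcard 0 (e ▸ hz), fun hb => hB z hb hz⟩
  have hne : ({z | Adj G z 0} : Set (Fin 4060)).Nonempty := by
    rw [← Set.ncard_pos, hG.ncard_in hcard 0]; omega
  obtain ⟨z, hz⟩ := hne
  have hall : {z | IsC z} ⊆ {z | Adj G z 0} := fun w hw => by
    obtain ⟨s, hs, es⟩ := exists_moveC (hsub hz)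
    obtain ⟨s', hs', es'⟩ := exists_moveC hw
    have hm := hG.le (Tg.mul_mem hs' (Tg.inv_mem hs))
    have e0 : (s' * s⁻¹) 0 = 0 := (Tg.mul_mem hs' (Tg.inv_mem hs)).2
    have e1 : (s' * s⁻¹) z = w := by rw [Perm.mul_apply, ← es]; simpa using es'
    have := (hG.adj_map hm).2 (show Adj G z 0 from hz)
    rwa [e0, e1] at this
  have h := hG.ncard_in hcard 0
  rw [Set.Subset.antisymm hsub hall, ncard_of_countFrom (fun x => !(Nat.beq x 0) && !(inB x)) _ fun x => by
    simp only [Set.mem_setOf_eq, IsC, IsB, Bool.and_eq_true, Bool.not_eq_true', ne_eq, ← Fin.val_eq_zero_iff,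
      Bool.eq_false_iff, Nat.beq_eq]] at h
  have h2 : countFrom (fun x => !(Nat.beq x 0) && !(inB x)) 4060 0 = 2304 := by
    apply Nat.eq_of_beq_eq_true; decide +kernel
  omega

theorem symm {z y : Fin 4060} (h : Adj G z y) : Adj G y z := by
  obtain ⟨g, hg, rfl, hb⟩ := h
  obtain ⟨t, ht, e⟩ := exists_moveB hcard hb
  have h0 : t 0 = 0 := ((hG.stab t).1 ht).2
  have hm := G.mul_mem hg (hG.le ht)
  have := (hG.adj_map hm).2 (hG.adj_back hcard)
  rwa [Perm.mul_apply, Perm.mul_apply, e, h0, app_inv] at this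

theorem symm_iff {z y : Fin 4060} : Adj G z y ↔ Adj G y z := ⟨hG.symm hcard, hG.symm hcard⟩

theorem not_clique : ¬ ∀ y, Adj G (pt 2305) y ↔ (y = 0 ∨ IsB y) ∧ y ≠ pt 2305 := by
  classical
  intro hcl
  set S : Set (Fin 4060) := {y | y = 0 ∨ IsB y} with hS
  have hclass : ∀ a ∈ S, {y | y = a ∨ Adj G a y} = S := by
    rintro a (rfl | ha)
    · ext y; simp [hS, hG.adj_zero hcard]
    · obtain ⟨t, ht, rfl⟩ := exists_moveB hcard ha
      have h0 : t 0 = 0 := ((hG.stab t).1 ht).2
      ext y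
      have e : Adj G (t (pt 2305)) y ↔ Adj G (pt 2305) (t⁻¹ y) := by
        conv_lhs => rw [← app_inv t y]
        exact hG.adj_map (hG.le ht)
      have hB : IsB (t⁻¹ y) ↔ IsB y := isB_apply_iff hcard (Tg.inv_mem ht)
      have hz : t⁻¹ y = 0 ↔ y = 0 := by rw [Perm.inv_eq_iff_eq, h0]
      simp only [Set.mem_setOf_eq, hS, e, hcl, hB, hz, Perm.inv_eq_iff_eq, ne_eq]
      by_cases hy : y = t (pt 2305)
      · subst hy; simp [isB_apply hcard ht isB_base]
      · simp [hy]
  have hblock : MulAction.IsBlock ↥G S := by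
    rw [MulAction.isBlock_iff_smul_eq_or_disjoint]
    intro g
    by_cases hd : Disjoint (g • S) S
    · exact Or.inr hd
    left
    obtain ⟨w, ⟨a, ha, rfl⟩, hw⟩ := Set.not_disjoint_iff.1 hd
    have e : (g • S : Set (Fin 4060)) = {y | y = g.1 a ∨ Adj G (g.1 a) y} := by
      conv_lhs => rw [← hclass a ha]
      ext y
      constructor
      · rintro ⟨u, hu, rfl⟩
        rcases hu with rfl | hu
        · exact Or.inl rfl
        · exact Or.inr ((hG.adj_map g.2).2 hu)
      · rintro (rfl | hy)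
        · exact ⟨a, Or.inl rfl, rfl⟩
        · refine ⟨g.1⁻¹ y, Or.inr ((hG.adj_map g.2).1 ?_), ?_⟩
          · simpa using hy
          · exact g.1.apply_symm_apply y
    rw [e]
    exact hclass _ hw
  haveI : MulAction.IsPretransitive ↥G (Fin 4060) := ⟨fun x y => by
    obtain ⟨a, ha, rfl⟩ := hG.trans x
    obtain ⟨b, hb, rfl⟩ := hG.trans y
    exact ⟨⟨b * a⁻¹, G.mul_mem hb (G.inv_mem ha)⟩, by show (b * a⁻¹) (a 0) = b 0; simp⟩⟩
  have hdvd := hblock.ncard_dvd_card ⟨0, Or.inl rfl⟩
  have hn : S.ncard = 1756 := by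
    rw [show S = insert 0 {y | IsB y} from rfl, Set.ncard_insert_of_notMem (s := {y | IsB y}) not_isB_zero,
      ncard_isB hcard]
  rw [hn, Nat.card_fin] at hdvd
  norm_num at hdvd

theorem adj_second (y : Fin 4060) : Adj G (pt 2305) y ↔ fRoot forP y ∈ [0, 641, 3330, 3331, 3844] := by
  classical
  set R : Set (Fin 4060) := {y | Adj G (pt 2305) y}
  have hR : ∀ g ∈ Pg, ∀ x ∈ R, g x ∈ R := fun g hg x hx => by
    have := (hG.adj_map (hG.le hg.1)).2 (show Adj G (pt 2305) x from hx)
    rwa [show g (pt 2305) = pt 2305 from hg.2] at this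
  have hroots : ∀ x : Fin 4060, ∃ i, fRoot forP x = ![0, 1, 641, 2305, 2306, 3330, 3331, 3844] i := fun x => by
    have h := all4060_spec rootsP_ok x
    simp only [Bool.and_eq_true, memB_iff, rootsP] at h
    have := h.1.1
    simp only [List.mem_cons, List.not_mem_nil, or_false] at this
    rcases this with e | e | e | e | e | e | e | e
    exacts [⟨0, e⟩, ⟨1, e⟩, ⟨2, e⟩, ⟨3, e⟩, ⟨4, e⟩, ⟨5, e⟩, ⟨6, e⟩, ⟨7, e⟩]
  have hsz : ∀ i : Fin 8, treeSize forP (![0, 1, 641, 2305, 2306, 3330, 3331, 3844] i) =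
      ![1, 1280, 1024, 1, 1024, 10, 640, 80] i := fun i => by
    have h := allFrom_spec sizeP_ok i (Nat.zero_le _) (by simp [rootsP])
    fin_cases i <;> exact Nat.eq_of_beq_eq_true h
  set ε : Fin 8 → Bool := fun i => decide (pt (![0, 1, 641, 2305, 2306, 3330, 3331, 3844] i) ∈ R)
  have hmem : ∀ (x : Fin 4060) i, fRoot forP x = ![0, 1, 641, 2305, 2306, 3330, 3331, 3844] i → (x ∈ R ↔ ε i = true) := fun x i e => by
    rw [forest_invariant forP_ok forP_gens hR x, e]; simp [ε]
  have hsum := ncard_invariant forP_ok forP_gens _ _ rootsP_inj hsz Set.univ (fun x _ => hroots x) hR (Set.subset_univ R)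
  rw [show R.ncard = 1755 from hG.ncard_out hcard _] at hsum
  have hsum' : (∑ i, if ε i then ![1, 1280, 1024, 1, 1024, 10, 640, 80] i else 0) = 1755 := by
    rw [hsum]; exact Finset.sum_congr rfl fun i _ => by simp [ε]
  have h0 : ε 0 = true := by
    simp only [ε, decide_eq_true_eq]
    exact hG.adj_back hcard
  have h3 : ε 3 = false := by
    simp only [ε, decide_eq_false_iff_not]
    exact hG.irrefl hcard _
  rcases eps_P ε hsum' h0 h3 with hA | hB
  · obtain ⟨i, hi⟩ := hroots y
    show y ∈ R ↔ _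
    rw [hmem y i hi, hA i, hi]
    fin_cases i <;> simp
  · exfalso
    apply hG.not_clique hcard
    intro y
    obtain ⟨i, hi⟩ := hroots y
    have hy := all4060_spec rootsP_ok y
    simp only [Bool.and_eq_true, Bool.or_eq_true, Bool.not_eq_true'] at hy
    obtain ⟨⟨-, hyB⟩, hyN⟩ := hy
    obtain ⟨-, -, g, hg, eg⟩ := forest_mem forP_ok forP_gens y
    have hB' : IsB y ↔ fRoot forP y ∈ [2305, 2306, 3330, 3331, 3844] := by
      refine ⟨fun hb => memB_iff.1 (hyB.resolve_left (by rw [show inB (y : ℕ) = true from hb]; simp)), fun hm => ?_⟩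
      by_contra hb
      have hn := memB_iff.1 (hyN.resolve_left hb)
      simp only [List.mem_cons, List.not_mem_nil, or_false] at hm hn
      omega
    have e0 : y = 0 ↔ fRoot forP y = 0 := by
      refine ⟨fun e => ?_, fun e => ?_⟩
      · subst e; apply Nat.eq_of_beq_eq_true; decide +kernel
      · rw [e] at eg; rw [← eg]; exact hg.1.2
    have e3 : y = pt 2305 ↔ fRoot forP y = 2305 := by
      refine ⟨fun e => ?_, fun e => ?_⟩
      · subst e; rw [pt_val (by omega)]; apply Nat.eq_of_beq_eq_true; decide +kernel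
      · rw [e] at eg; rw [← eg]; exact hg.2
    show y ∈ R ↔ _
    rw [hmem y i hi, hB i, hB', e0, ne_eq, e3, hi]
    fin_cases i <;> simp

theorem adj_B {z : Fin 4060} (hz : IsB z) (y : Fin 4060) : Adj G z y ↔ Adj ruPerm z y := by
  obtain ⟨t, ht, rfl⟩ := exists_moveB hcard hz
  conv_lhs => rw [← app_inv t y]
  conv_rhs => rw [← app_inv t y]
  rw [hG.adj_map (hG.le ht), good_ruPerm.adj_map (good_ruPerm.le ht), hG.adj_second hcard,
    good_ruPerm.adj_second hcard]

end Good

/-- The neighbours of the third point beside the second suborbit. -/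
def nbrC (G : Subgroup (Perm (Fin 4060))) : Set (Fin 4060) := {y | IsC y ∧ Adj G (pt 358) y}

include hcard

theorem rowBuild_spec {z : ℕ} (hz : z < 4060) (hr : Ctx.rank gLev0 z ≠ 0) :
    ∀ n lo, lo + n ≤ 4060 → ∀ x : Fin 4060, Nat.testBit (rowBuild z n lo) x = true ↔
      ∃ y : Fin 4060, lo ≤ (y : ℕ) ∧ (y : ℕ) < lo + n ∧ IsB y ∧ stepUp gLev0 z y = x := by
  intro n
  induction n with
  | zero => intro lo _ x; simp [rowBuild]; omega
  | succ n ih =>
    intro lo hlo x
    have e : rowBuild z (n + 1) lo = bif inB lo then Nat.lor (rowBuild z n (lo + 1))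
        (Nat.shiftLeft 1 (stepUp gLev0 z lo)) else rowBuild z n (lo + 1) := by
      show (forceNat lo fun lo => forceNat (rowBuild z n (Nat.succ lo)) fun acc =>
        bif inB lo then forceNat (stepUp gLev0 z lo) fun x => Nat.lor acc (Nat.shiftLeft 1 x) else acc) = _
      simp only [forceNat_eq, Nat.succ_eq_add_one]
    rw [e]
    rcases hb : inB lo with _ | _
    · rw [cond_false, ih (lo + 1) (by omega)]
      refine ⟨fun ⟨y, h1, h2, h3, h4⟩ => ⟨y, by omega, by omega, h3, h4⟩, fun ⟨y, h1, h2, h3, h4⟩ => ?_⟩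
      rcases Nat.eq_or_lt_of_le h1 with rfl | h
      · exact absurd (show inB (y : ℕ) = true from h3) (by simp [hb])
      · exact ⟨y, h, by omega, h3, h4⟩
    · rw [cond_true, show Nat.lor (rowBuild z n (lo + 1)) (Nat.shiftLeft 1 (stepUp gLev0 z lo)) =
        rowBuild z n (lo + 1) ||| (1 <<< stepUp gLev0 z lo) from rfl, Nat.testBit_or, Bool.or_eq_true,
        Nat.one_shiftLeft, Nat.testBit_two_pow, decide_eq_true_eq, ih (lo + 1) (by omega)]
      constructor
      · rintro (⟨y, h1, h2, h3, h4⟩ | h)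
        · exact ⟨y, by omega, by omega, h3, h4⟩
        · exact ⟨⟨lo, by omega⟩, le_refl _, by simp, hb, h⟩
      · rintro ⟨y, h1, h2, h3, h4⟩
        rcases Nat.eq_or_lt_of_le h1 with rfl | h
        · exact Or.inr h4
        · exact Or.inl ⟨y, h, by omega, h3, h4⟩

/-- The stored rows. -/
theorem row_spec {e : ℕ × ℕ} (he : e ∈ rowList) (x : Fin 4060) :
    e.1 < 4060 ∧ (inRow e.2 x = true ↔ Adj ruPerm (pt e.1) x) := by
  have h := List.all_eq_true.1 rowList_ok e he
  simp only [Bool.and_eq_true, Nat.blt_eq, Bool.not_eq_true'] at h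
  obtain ⟨⟨hz, hr⟩, hv⟩ := h
  have hr' : Ctx.rank gLev0 e.1 ≠ 0 := fun e => by simp [e] at hr
  refine ⟨hz, ?_⟩
  obtain ⟨hm, hb, -, hu, -⟩ := step_spec levels_split.1 hz hr'
  have hb0 := hb 0 rfl
  conv_rhs => rw [← hb0, good_ruPerm.adj_iff hcard hm]
  have hbit : inRow e.2 x = true ↔ Nat.testBit e.2 x = true := by
    simp only [inRow, bitAt, Nat.testBit, bne_iff_ne, Nat.beq_eq]
    show (e.2 >>> (x : ℕ)) &&& 1 = 1 ↔ _
    rw [Nat.and_one_is_mod, Nat.one_and_eq_mod_two]
    omega
  rw [hbit, ← Nat.eq_of_beq_eq_true hv, rowBuild_spec hcard hz hr' 4060 0 (le_refl _)]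
  constructor
  · rintro ⟨y, -, -, hy, e'⟩
    have : tv gLev0 e.1 y = x := Fin.ext ((hu y).trans e')
    rw [← this]; simpa using hy
  · intro h
    exact ⟨_, Nat.zero_le _, by simp, h, by rw [← hu]; simp⟩

namespace Good

variable {G : Subgroup (Perm (Fin 4060))} (hG : Good G)

include hG

theorem ncard_nbrC : (nbrC G).ncard = 975 := by
  classical
  have hout : ∀ (H : Subgroup (Perm (Fin 4060))), Good H →
      (nbrC H).ncard + {y | (y = 0 ∨ IsB y) ∧ Adj H (pt 358) y}.ncard = 1755 := fun H hH => by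
    rw [← Set.ncard_union_eq, ← hH.ncard_out hcard (pt 358)]
    · congr 1
      ext y
      simp only [nbrC, IsC, Set.mem_union, Set.mem_setOf_eq]
      tauto
    · rw [Set.disjoint_left]
      rintro y ⟨⟨h1, h2⟩, -⟩ ⟨h3, -⟩
      tauto
  have hsame : {y | (y = 0 ∨ IsB y) ∧ Adj G (pt 358) y} = {y | (y = 0 ∨ IsB y) ∧ Adj ruPerm (pt 358) y} := by
    ext y
    refine and_congr_right fun hy => ?_
    rw [hG.symm_iff hcard, good_ruPerm.symm_iff hcard (z := pt 358)]
    rcases hy with rfl | hy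
    · rw [hG.adj_zero hcard, good_ruPerm.adj_zero hcard]
    · exact hG.adj_B hcard hy _
  have hru : (nbrC ruPerm).ncard = 975 := by
    rw [ncard_of_countFrom (fun x => !(Nat.beq x 0) && !(inB x) && inRow row358 x) _ fun x => ?_]
    · exact Nat.eq_of_beq_eq_true count358_ok
    · have h := (row_spec hcard (e := (358, row358)) (by simp [rowList]) x).2
      simp only [nbrC, IsC, IsB, Set.mem_setOf_eq, Bool.and_eq_true, Bool.not_eq_true', h]
      simp only [ne_eq, ← Fin.val_eq_zero_iff, Bool.eq_false_iff, Nat.beq_eq]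
  have h1 := hout G hG
  have h2 := hout ruPerm good_ruPerm
  rw [hsame] at h1
  omega

theorem adj_third {y : Fin 4060} (hy : IsC y) : Adj G (pt 358) y ↔ fRoot forK y = 17 := by
  classical
  set H : Subgroup (Perm (Fin 4060)) := Tg ⊓ MulAction.stabilizer (Perm (Fin 4060)) (pt 358)
  have hR : ∀ g ∈ H, ∀ x ∈ nbrC G, g x ∈ nbrC G := fun g hg x hx => by
    refine ⟨⟨fun e => hx.1.1 (g.injective (e.trans hg.1.2.symm)), fun hb => hx.1.2 ((isB_apply_iff hcard hg.1).1 hb)⟩, ?_⟩
    have := (hG.adj_map (hG.le hg.1)).2 hx.2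
    rwa [show g (pt 358) = pt 358 from hg.2] at this
  have hroots : ∀ x ∈ {x : Fin 4060 | IsC x}, ∃ i, fRoot forK x = ![1, 3, 17, 65, 133, 358] i := fun x hx => by
    have h := all4060_spec rootsK_ok x
    simp only [forceNat_eq, show inB (x : ℕ) = false from Bool.eq_false_iff.2 hx.2, show Nat.beq (x : ℕ) 0 = false by
      simpa [Bool.eq_false_iff, Fin.val_eq_zero_iff] using hx.1, Bool.false_or, cond_false, memB_iff, rootsK,
      List.mem_cons, List.not_mem_nil, or_false] at h
    rcases h with e | e | e | e | e | e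
    exacts [⟨0, e⟩, ⟨1, e⟩, ⟨2, e⟩, ⟨3, e⟩, ⟨4, e⟩, ⟨5, e⟩]
  have hsz : ∀ i : Fin 6, treeSize forK (![1, 3, 17, 65, 133, 358] i) = ![300, 650, 975, 300, 78, 1] i := fun i => by
    have h := allFrom_spec sizeK_ok i (Nat.zero_le _) (by simp [rootsK])
    fin_cases i <;> exact Nat.eq_of_beq_eq_true h
  set ε : Fin 6 → Bool := fun i => decide (pt (![1, 3, 17, 65, 133, 358] i) ∈ nbrC G)
  have hsum := ncard_invariant forK_ok forK_gens _ _ rootsK_inj hsz _ hroots hR (fun x hx => hx.1)
  rw [hG.ncard_nbrC hcard] at hsum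
  have hsum' : (∑ i, if ε i then ![300, 650, 975, 300, 78, 1] i else 0) = 975 := by
    refine (Finset.sum_congr rfl fun i _ => ?_).trans hsum.symm
    simp [ε]
  have h5 : ε 5 = false := by
    simp only [ε, decide_eq_false_iff_not]
    exact fun h => hG.irrefl hcard _ h.2
  have hA := eps_K ε hsum' h5
  obtain ⟨i, hi⟩ := hroots y hy
  have : y ∈ nbrC G ↔ ε i = true := by
    rw [forest_invariant forK_ok forK_gens hR y, hi]; simp [ε]
  rw [show Adj G (pt 358) y ↔ y ∈ nbrC G from ⟨fun h => ⟨hy, h⟩, fun h => h.2⟩, this, hA i, hi]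
  fin_cases i <;> simp

/-- The graph is that of the Rudvalis permutation group. -/
theorem adj_eq (z y : Fin 4060) : Adj G z y ↔ Adj ruPerm z y := by
  by_cases h0 : z = 0
  · subst h0; rw [hG.adj_zero hcard, good_ruPerm.adj_zero hcard]
  by_cases hb : IsB z
  · exact hG.adj_B hcard hb y
  obtain ⟨t, ht, rfl⟩ := exists_moveC ⟨h0, hb⟩
  conv_lhs => rw [← app_inv t y]
  conv_rhs => rw [← app_inv t y]
  rw [hG.adj_map (hG.le ht), good_ruPerm.adj_map (good_ruPerm.le ht)]
  generalize t⁻¹ y = w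
  by_cases hw0 : w = 0
  · subst hw0
    rw [hG.symm_iff hcard, good_ruPerm.symm_iff hcard (z := pt 358), hG.adj_zero hcard, good_ruPerm.adj_zero hcard]
  by_cases hwb : IsB w
  · rw [hG.symm_iff hcard, good_ruPerm.symm_iff hcard (z := pt 358)]
    exact hG.adj_B hcard hwb _
  · rw [hG.adj_third hcard ⟨hw0, hwb⟩, good_ruPerm.adj_third hcard ⟨hw0, hwb⟩]

end Good

end

end Cfsg.Agent.H12.RuRec
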