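import Cfsg.Agent.H12.RuRec.Rigid

/-!
A group with the given point stabiliser and suborbits is the permutation group of degree 4060.
-/

set_option autoImplicit false
set_option maxRecDepth 100000
set_option linter.unusedSectionVars false

open Equiv Cfsg.Agent.H16 Cfsg.Agent.H36 Cfsg.Agent.H36.AutEngine Cfsg.Agent.H56.RuTits

namespace Cfsg.Agent.H12.RuRec

noncomputable section

variable (hcard : Nat.card ruPerm = 145926144000)

include hcard

theorem ncard_isC : {x : Fin 4060 | IsC x}.ncard = 2304 := by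
  refine (ncard_of_countFrom (fun x => !(Nat.beq x 0) && !(inB x)) {x | IsC x} fun x => ?_).trans ?_
  · simp only [Set.mem_setOf_eq, IsC, IsB, Bool.and_eq_true, Bool.not_eq_true', ne_eq, ← Fin.val_eq_zero_iff,
      Bool.eq_false_iff, Nat.beq_eq]
  · apply Nat.eq_of_beq_eq_true
    decide +kernel

theorem isC_apply {g : Perm (Fin 4060)} (hg : g ∈ Tg) {x : Fin 4060} (hx : IsC x) : IsC (g x) :=
  ⟨fun e => hx.1 (g.injective (e.trans hg.2.symm)), fun hb => hx.2 ((isB_apply_iff hcard hg).1 hb)⟩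

theorem card_stab_B {x₀ : Fin 4060} (hx : IsB x₀) :
    Nat.card (Tg ⊓ MulAction.stabilizer (Perm (Fin 4060)) x₀ : Subgroup (Perm (Fin 4060))) = 20480 := by
  have h := card_eq_orbit_mul Tg x₀
  have hset : {x | ∃ g ∈ Tg, g x₀ = x} = {x : Fin 4060 | IsB x} := Set.ext fun x =>
    ⟨fun ⟨g, hg, e⟩ => e ▸ isB_apply hcard hg hx, fun hy => by
      obtain ⟨s, hs, es⟩ := exists_moveB hcard hx
      obtain ⟨t, ht, et⟩ := exists_moveB hcard hy
      exact ⟨t * s⁻¹, Tg.mul_mem ht (Tg.inv_mem hs), by rw [Perm.mul_apply, ← es]; simpa using et⟩⟩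
  rw [hset, ncard_isB hcard, card_Tg hcard] at h
  omega

theorem card_stab_C {x₀ : Fin 4060} (hx : IsC x₀) :
    Nat.card (Tg ⊓ MulAction.stabilizer (Perm (Fin 4060)) x₀ : Subgroup (Perm (Fin 4060))) = 15600 := by
  have h := card_eq_orbit_mul Tg x₀
  have hset : {x | ∃ g ∈ Tg, g x₀ = x} = {x : Fin 4060 | IsC x} := Set.ext fun x =>
    ⟨fun ⟨g, hg, e⟩ => e ▸ isC_apply hcard hg hx, fun hy => by
      obtain ⟨s, hs, es⟩ := exists_moveC hx
      obtain ⟨t, ht, et⟩ := exists_moveC hy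
      exact ⟨t * s⁻¹, Tg.mul_mem ht (Tg.inv_mem hs), by rw [Perm.mul_apply, ← es]; simpa using et⟩⟩
  rw [hset, ncard_isC hcard, card_Tg hcard] at h
  omega

/-- The uniqueness. -/
theorem eq_ruPerm {G : Subgroup (Perm (Fin 4060))} (hG : Good G) : G = ruPerm := by
  classical
  have hadj := hG.adj_eq hcard
  have swap : ∀ (H : Subgroup (Perm (Fin 4060))), Good H →
      ∃ g ∈ H, g 0 = pt 2305 ∧ g (pt 2305) = 0 := by
    intro H hH
    obtain ⟨u, hu, e, hb⟩ := hH.adj_back hcard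
    obtain ⟨t, ht, et⟩ := exists_moveB hcard hb
    refine ⟨u * t, H.mul_mem hu (hH.le ht), ?_, ?_⟩
    · rw [Perm.mul_apply, ((hH.stab t).1 ht).2, e]
    · rw [Perm.mul_apply, et, app_inv]
  obtain ⟨g, hg, g0, g1⟩ := swap G hG
  obtain ⟨r, hr, r0, r1⟩ := swap ruPerm good_ruPerm
  have hgr : g ∈ ruPerm := by
    have hh : r⁻¹ * g ∈ Pg := by
      refine mem_Pg_of_aut hcard _ ?_ ?_ (fun z y => ?_) fun p hp => ?_
      · rw [Perm.mul_apply, g0, ← r0]; simp
      · rw [Perm.mul_apply, g1, ← r1]; simp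
      · rw [Perm.mul_apply, Perm.mul_apply, good_ruPerm.adj_map (ruPerm.inv_mem hr), ← hadj, hG.adj_map hg, hadj]
      · have g0' : g⁻¹ 0 = pt 2305 := Perm.inv_eq_iff_eq.2 g1.symm
        have g1' : g⁻¹ (pt 2305) = 0 := Perm.inv_eq_iff_eq.2 g0.symm
        have p0 : p 0 = 0 := hp.1.2
        have p1 : p (pt 2305) = pt 2305 := hp.2
        have hq : g * p * g⁻¹ ∈ Pg := by
          refine mem_Pg.2 ⟨(hG.stab _).2 ⟨G.mul_mem (G.mul_mem hg (hG.le hp.1)) (G.inv_mem hg), ?_⟩, ?_⟩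
          · rw [Perm.mul_apply, Perm.mul_apply, g0', p1, g1]
          · rw [Perm.mul_apply, Perm.mul_apply, g1', p0, g0]
        have r0' : r⁻¹ 0 = pt 2305 := Perm.inv_eq_iff_eq.2 r1.symm
        have r1' : r⁻¹ (pt 2305) = 0 := Perm.inv_eq_iff_eq.2 r0.symm
        have e : r⁻¹ * g * p * (r⁻¹ * g)⁻¹ = r⁻¹ * (g * p * g⁻¹) * r := by group
        rw [e]
        refine mem_Pg.2 ⟨(good_ruPerm.stab _).2 ⟨ruPerm.mul_mem (ruPerm.mul_mem (ruPerm.inv_mem hr)
          (good_ruPerm.le hq.1)) hr, ?_⟩, ?_⟩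
        · rw [Perm.mul_apply, Perm.mul_apply, r0, show (g * p * g⁻¹) (pt 2305) = pt 2305 from hq.2, r1']
        · rw [Perm.mul_apply, Perm.mul_apply, r1, show (g * p * g⁻¹) 0 = 0 from hq.1.2, r0']
    have := ruPerm.mul_mem hr hh.1.1
    rwa [mul_inv_cancel_left] at this
  set H : Subgroup (Perm (Fin 4060)) := G ⊓ ruPerm with hH
  have hTH : Tg ≤ H := le_inf hG.le good_ruPerm.le
  have hHT : H ⊓ MulAction.stabilizer (Perm (Fin 4060)) (0 : Fin 4060) = Tg :=
    le_antisymm (fun u hu => (hG.stab u).2 ⟨hu.1.1, hu.2⟩) fun u hu => ⟨hTH hu, hu.2⟩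
  set O : Set (Fin 4060) := {x | ∃ u ∈ H, u 0 = x}
  have h0 : (0 : Fin 4060) ∈ O := ⟨1, H.one_mem, rfl⟩
  have hB : ∀ x, IsB x → x ∈ O := fun x hx => by
    obtain ⟨t, ht, e⟩ := exists_moveB hcard hx
    exact ⟨t * g, H.mul_mem (hTH ht) ⟨hg, hgr⟩, by rw [Perm.mul_apply, g0, e]⟩
  have hcardH : Nat.card H = O.ncard * 35942400 := by
    rw [card_eq_orbit_mul H (0 : Fin 4060), hHT, card_Tg hcard]
  have hO : O = Set.univ := by
    by_cases hC : ∃ x, IsC x ∧ x ∈ O
    · obtain ⟨x, hx, u, hu, eu⟩ := hC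
      refine Set.eq_univ_of_forall fun y => ?_
      by_cases hy0 : y = 0
      · exact hy0 ▸ h0
      by_cases hyB : IsB y
      · exact hB y hyB
      obtain ⟨s, hs, es⟩ := exists_moveC hx
      obtain ⟨t, ht, et⟩ := exists_moveC ⟨hy0, hyB⟩
      refine ⟨t * s⁻¹ * u, H.mul_mem (H.mul_mem (hTH ht) (H.inv_mem (hTH hs))) hu, ?_⟩
      rw [Perm.mul_apply, Perm.mul_apply, eu, ← es]
      simpa using et
    · exfalso
      push Not at hC
      have hOe : O = insert 0 {x | IsB x} := by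
        ext x
        refine ⟨fun hx => ?_, ?_⟩
        · by_contra hn
          rw [Set.mem_insert_iff, not_or] at hn
          exact hC x ⟨hn.1, hn.2⟩ hx
        · rintro (rfl | hx)
          exacts [h0, hB x hx]
      have hn : O.ncard = 1756 := by
        rw [hOe, Set.ncard_insert_of_notMem (s := {x : Fin 4060 | IsB x}) not_isB_zero, ncard_isB hcard]
      have hdvd : Nat.card H ∣ Nat.card ruPerm := Subgroup.card_dvd_of_le inf_le_right
      rw [hcardH, hn, hcard] at hdvd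
      norm_num at hdvd
  rw [hO, Set.ncard_univ, Nat.card_fin] at hcardH
  have hGc : Nat.card G = 145926144000 := by
    rw [card_eq_orbit_mul G (0 : Fin 4060), show {x | ∃ u ∈ G, u 0 = x} = Set.univ from Set.eq_univ_of_forall hG.trans,
      Set.ncard_univ, Nat.card_fin,
      show G ⊓ MulAction.stabilizer (Perm (Fin 4060)) (0 : Fin 4060) = Tg from Subgroup.ext fun u => (hG.stab u).symm,
      card_Tg hcard]
  have e1 : H = G := Subgroup.eq_of_le_of_card_ge inf_le_left (by rw [hGc, hcardH])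
  have e2 : H = ruPerm := Subgroup.eq_of_le_of_card_ge inf_le_right (by rw [hcard, hcardH])
  exact e1.symm.trans e2

omit hcard in
/-- Stabilisers correspond. -/
theorem stab_iff {S Ω : Type*} [Group S] [MulAction S Ω] (φ : S ≃* ↥Tg) {b : Ω} {x₀ : Fin 4060}
    (hfix : ∀ s : S, s • b = b → (φ s).1 x₀ = x₀)
    (hc : Nat.card (MulAction.stabilizer S b) =
      Nat.card (Tg ⊓ MulAction.stabilizer (Perm (Fin 4060)) x₀ : Subgroup (Perm (Fin 4060))))
    (s : S) : (φ s).1 x₀ = x₀ ↔ s • b = b := by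
  refine ⟨fun h => ?_, hfix s⟩
  set f : S →* Perm (Fin 4060) := Tg.subtype.comp φ.toMonoidHom
  have hf : Function.Injective f := Tg.subtype_injective.comp φ.injective
  have e : (MulAction.stabilizer S b).map f = Tg ⊓ MulAction.stabilizer (Perm (Fin 4060)) x₀ := by
    refine Subgroup.eq_of_le_of_card_ge ?_ (by rw [Subgroup.card_map_of_injective hf, hc])
    rintro _ ⟨u, hu, rfl⟩
    exact ⟨(φ u).2, hfix u hu⟩
  have hm : f s ∈ (MulAction.stabilizer S b).map f := by
    rw [e]; exact ⟨(φ s).2, h⟩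
  exact (Subgroup.mem_map_iff_mem hf).1 hm

omit hcard in
theorem card_stabilizer_of_orbit {S Ω : Type*} [Group S] [MulAction S Ω] {b : Ω} {n m : ℕ}
    (hn : (MulAction.orbit S b).ncard = n) (hS : Nat.card S = n * m) (hpos : 0 < n) :
    Nat.card (MulAction.stabilizer S b) = m := by
  have h := (MulAction.stabilizer S b).card_mul_index
  rw [MulAction.index_stabilizer, hn, hS, mul_comm n m] at h
  exact Nat.eq_of_mul_eq_mul_right hpos h

/-- The transport to the standard points. -/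
theorem exists_good
    (hother : ∀ K : Subgroup (Perm (Fin 4060)), K ≤ Tg → Nat.card K = 15600 →
      ∃ x : Fin 4060, x ≠ 0 ∧ ¬ IsB x ∧ ∀ g ∈ K, g x = x)
    {Ω : Type*} [Fintype Ω] (hΩ : Fintype.card Ω = 4060) (G : Subgroup (Perm Ω))
    [MulAction.IsPretransitive G Ω] (a : Ω) (φ : MulAction.stabilizer G a ≃* ↥Tg) (b c : Ω)
    (hb : (MulAction.orbit (MulAction.stabilizer G a) b).ncard = 1755)
    (hc : (MulAction.orbit (MulAction.stabilizer G a) c).ncard = 2304) :
    ∃ G' : Subgroup (Perm (Fin 4060)), Good G' ∧ Nonempty (G ≃* G') := by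
  classical
  set S := MulAction.stabilizer G a
  have hS : Nat.card S = 35942400 := (Nat.card_congr φ.toEquiv).trans (card_Tg hcard)
  have hSb : Nat.card (MulAction.stabilizer S b) = 20480 :=
    card_stabilizer_of_orbit hb (by rw [hS]) (by omega)
  have hSc : Nat.card (MulAction.stabilizer S c) = 15600 :=
    card_stabilizer_of_orbit hc (by rw [hS]) (by omega)
  set f : S →* Perm (Fin 4060) := Tg.subtype.comp φ.toMonoidHom
  have hf : Function.Injective f := Tg.subtype_injective.comp φ.injective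
  have hle : ∀ U : Subgroup S, U.map f ≤ Tg := fun U => by
    rintro _ ⟨u, -, rfl⟩; exact (φ u).2
  obtain ⟨xB, hxB, hfixB⟩ := fixes_of_card_P hcard ((MulAction.stabilizer S b).map f) (hle _)
    (by rw [Subgroup.card_map_of_injective hf, hSb])
  obtain ⟨xC, hxC0, hxCB, hfixC⟩ := hother ((MulAction.stabilizer S c).map f) (hle _)
    (by rw [Subgroup.card_map_of_injective hf, hSc])
  have hxC : IsC xC := ⟨hxC0, hxCB⟩
  have hb' := stab_iff φ (fun s hs => hfixB _ ⟨s, hs, rfl⟩) (hSb.trans (card_stab_B hcard hxB).symm)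
  have hc' := stab_iff φ (fun s hs => hfixC _ ⟨s, hs, rfl⟩) (hSc.trans (card_stab_C hcard hxC).symm)
  have mB : ∀ x : Fin 4060, ∃ s : S, IsB x → (φ s).1 xB = x := fun x => by
    by_cases hx : IsB x
    · obtain ⟨u, hu, eu⟩ := exists_moveB hcard hxB
      obtain ⟨t, ht, et⟩ := exists_moveB hcard hx
      refine ⟨φ.symm ⟨t * u⁻¹, Tg.mul_mem ht (Tg.inv_mem hu)⟩, fun _ => ?_⟩
      rw [MulEquiv.apply_symm_apply]
      show (t * u⁻¹) xB = x
      rw [Perm.mul_apply, ← eu]
      simpa using et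
    · exact ⟨1, fun h => absurd h hx⟩
  have mC : ∀ x : Fin 4060, ∃ s : S, IsC x → (φ s).1 xC = x := fun x => by
    by_cases hx : IsC x
    · obtain ⟨u, hu, eu⟩ := exists_moveC hxC
      obtain ⟨t, ht, et⟩ := exists_moveC hx
      refine ⟨φ.symm ⟨t * u⁻¹, Tg.mul_mem ht (Tg.inv_mem hu)⟩, fun _ => ?_⟩
      rw [MulEquiv.apply_symm_apply]
      show (t * u⁻¹) xC = x
      rw [Perm.mul_apply, ← eu]
      simpa using et
    · exact ⟨1, fun h => absurd h hx⟩
  choose τB hτB using mB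
  choose τC hτC using mC
  set θ : Fin 4060 → Ω := fun x => if x = 0 then a else if IsB x then τB x • b else τC x • c with hθ
  have hsa : ∀ s : S, s • a = a := fun s => s.2
  have hφ0 : ∀ s : S, (φ s).1 0 = 0 := fun s => (φ s).2.2
  have keyb : ∀ s s' : S, (φ s).1 xB = (φ s').1 xB → s • b = s' • b := fun s s' h => by
    rw [← inv_smul_eq_iff, smul_smul, ← hb', map_mul, map_inv]
    show (φ s').1⁻¹ ((φ s).1 xB) = xB
    rw [h]; simp
  have keyc : ∀ s s' : S, (φ s).1 xC = (φ s').1 xC → s • c = s' • c := fun s s' h => by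
    rw [← inv_smul_eq_iff, smul_smul, ← hc', map_mul, map_inv]
    show (φ s').1⁻¹ ((φ s).1 xC) = xC
    rw [h]; simp
  have heq : ∀ (s : S) (x : Fin 4060), θ ((φ s).1 x) = s • θ x := by
    intro s x
    by_cases h0 : x = 0
    · subst h0; simp only [hθ, hφ0, if_pos, hsa]
    have h0' : (φ s).1 x ≠ 0 := fun e => h0 ((φ s).1.injective (e.trans (hφ0 s).symm))
    by_cases hxb : IsB x
    · have hxb' := isB_apply hcard (φ s).2 hxb
      simp only [hθ, if_neg h0, if_neg h0', if_pos hxb, if_pos hxb', smul_smul]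
      refine keyb _ _ ?_
      rw [hτB _ hxb', map_mul, Subgroup.coe_mul, Perm.mul_apply, hτB _ hxb]
    · have hxc : IsC x := ⟨h0, hxb⟩
      have hxc' := isC_apply hcard (φ s).2 hxc
      simp only [hθ, if_neg h0, if_neg h0', if_neg hxb, if_neg hxc'.2, smul_smul]
      refine keyc _ _ ?_
      rw [hτC _ hxc', map_mul, Subgroup.coe_mul, Perm.mul_apply, hτC _ hxc]
  have hBne : xB ≠ 0 := fun e => not_isB_zero (e ▸ hxB)
  have hθB : θ xB = b := by
    simp only [hθ, if_neg hBne, if_pos hxB]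
    exact (hb' _).1 (hτB _ hxB)
  have hθC : θ xC = c := by
    simp only [hθ, if_neg hxC0, if_neg hxCB]
    exact (hc' _).1 (hτC _ hxC)
  have hcover : ({a} ∪ MulAction.orbit S b ∪ MulAction.orbit S c : Set Ω) = Set.univ := by
    have horb : ∀ {d : Ω}, a ∈ MulAction.orbit S d → (MulAction.orbit S d).ncard = 1 := fun {d} h => by
      rw [← MulAction.orbit_eq_iff.2 h, show MulAction.orbit S a = {a} from Set.eq_singleton_iff_unique_mem.2
        ⟨MulAction.mem_orbit_self a, fun y ⟨s, e⟩ => e.symm.trans (hsa s)⟩, Set.ncard_singleton]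
    have d1 : a ∉ MulAction.orbit S b := fun h => by have := horb h; omega
    have d2 : a ∉ MulAction.orbit S c := fun h => by have := horb h; omega
    have d3 : Disjoint (MulAction.orbit S b) (MulAction.orbit S c) := Set.disjoint_left.2 fun y hy hy' => by
      rw [← MulAction.orbit_eq_iff.2 hy, MulAction.orbit_eq_iff.2 hy'] at hb
      omega
    refine Set.eq_of_subset_of_ncard_le (Set.subset_univ _) ?_
    rw [Set.ncard_univ, Nat.card_eq_fintype_card, hΩ, Set.ncard_union_eq, Set.ncard_union_eq, Set.ncard_singleton,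
      hb, hc]
    · exact Set.disjoint_singleton_left.2 d1
    · exact Set.disjoint_union_left.2 ⟨Set.disjoint_singleton_left.2 d2, d3⟩
  have hsurj : Function.Surjective θ := fun y => by
    rcases (hcover.symm ▸ Set.mem_univ y : y ∈ ({a} ∪ MulAction.orbit S b ∪ MulAction.orbit S c : Set Ω)) with
      (rfl | ⟨s, rfl⟩) | ⟨s, rfl⟩
    · exact ⟨0, by simp [hθ]⟩
    · exact ⟨_, (heq s xB).trans (by rw [hθB])⟩
    · exact ⟨_, (heq s xC).trans (by rw [hθC])⟩
  set β : Fin 4060 ≃ Ω := Equiv.ofBijective θ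
    ((Fintype.bijective_iff_surjective_and_card θ).2 ⟨hsurj, by rw [Fintype.card_fin, hΩ]⟩)
  set conj : Perm Ω →* Perm (Fin 4060) :=
    { toFun := fun u => β.symm.permCongr u
      map_one' := by ext x; simp
      map_mul' := fun u v => by ext x; simp } with hconj
  have hcinj : Function.Injective conj := fun u v h => β.symm.permCongr.injective h
  have hconjS : ∀ s : S, conj s.1.1 = (φ s).1 := fun s => Equiv.ext fun x => by
    show β.symm (s.1.1 (β x)) = _
    rw [Equiv.symm_apply_eq]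
    exact (heq s x).symm
  have hβ0 : β 0 = a := by show θ 0 = a; simp [hθ]
  refine ⟨G.map conj, ⟨fun x => ?_, fun g => ⟨fun hg => ?_, fun ⟨hg, g0⟩ => ?_⟩⟩, ⟨G.equivMapOfInjective conj hcinj⟩⟩
  · obtain ⟨u, hu⟩ := MulAction.exists_smul_eq G a (β x)
    refine ⟨_, ⟨u.1, u.2, rfl⟩, ?_⟩
    show β.symm (u.1 (β 0)) = x
    rw [hβ0, show u.1 a = β x from hu, Equiv.symm_apply_apply]
  · obtain ⟨s, hs⟩ := φ.surjective ⟨g, hg⟩
    exact ⟨⟨s.1.1, s.1.2, by rw [hconjS s, hs]⟩, hg.2⟩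
  · obtain ⟨u, hu, rfl⟩ := hg
    have hua : u a = a := by
      have : β.symm (u (β 0)) = 0 := g0
      rw [hβ0, Equiv.symm_apply_eq, hβ0] at this
      exact this
    rw [show conj u = (φ (⟨⟨u, hu⟩, hua⟩ : S)).1 from hconjS ⟨⟨u, hu⟩, hua⟩]
    exact (φ _).2

end

end Cfsg.Agent.H12.RuRec
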