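import Mathlib

/-!
Elementary facts on subgroups of order 15600 (Sylow 13, normaliser of order 52, 2-subgroups above an
element of order 4).
-/

set_option autoImplicit false

namespace Cfsg.Agent.H12.RuRec

variable {G : Type*} [Group G] [Finite G]

theorem dvd_cases {n : ℕ} (hd : n ∣ 1200) (hm : n % 13 = 1) : n = 1 ∨ n = 40 ∨ n = 300 := by
  have hn : n ∈ Nat.divisors 1200 := Nat.mem_divisors.2 ⟨hd, by norm_num⟩
  have key : ∀ m ∈ Nat.divisors 1200, m % 13 = 1 → m = 1 ∨ m = 40 ∨ m = 300 := by decide +kernel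
  exact key n hn hm

theorem card_sylow_cases (hG : Nat.card G = 15600) (P : Sylow 13 G) :
    Nat.card (Sylow 13 G) = 1 ∨ Nat.card (Sylow 13 G) = 40 ∨ Nat.card (Sylow 13 G) = 300 := by
  haveI : Fact (Nat.Prime 13) := ⟨by norm_num⟩
  refine dvd_cases ?_ (card_sylow_modEq_one 13 G)
  have h := P.card_dvd_index
  have hi := P.1.card_mul_index
  rw [P.card_eq_multiplicity, hG] at hi
  have : (15600 : ℕ).factorization 13 = 1 := by
    rw [show (15600 : ℕ) = 13 ^ 1 * 1200 from rfl, Nat.factorization_mul (by norm_num) (by norm_num),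
      Nat.Prime.factorization_pow (by norm_num)]
    simp [Nat.factorization_eq_zero_of_not_dvd (show ¬ 13 ∣ 1200 by norm_num)]
  rw [this, pow_one, show (15600 : ℕ) = 13 * 1200 from rfl] at hi
  rwa [Nat.eq_of_mul_eq_mul_left (by norm_num) hi] at h

theorem le_of_normalizer_le (T N S K : Subgroup G) (hK : Nat.card K = 15600) (hT : Nat.card T = 13)
    (hN : ∀ g, g ∈ N ↔ g ∈ K ∧ g ∈ Subgroup.normalizer (T : Set G)) (hN52 : Nat.card N = 52)
    (hTN : T ≤ N) (hNS : N ≤ S) (hSK : S ≤ K) : S = N ∨ S = K := by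
  haveI : Fact (Nat.Prime 13) := ⟨by norm_num⟩
  have hdS : Nat.card S ∣ 15600 := hK ▸ Subgroup.card_dvd_of_le hSK
  obtain ⟨m, hm⟩ : 52 ∣ Nat.card S := hN52 ▸ Subgroup.card_dvd_of_le hNS
  have hmd : m ∣ 300 := by
    rw [hm] at hdS
    exact Nat.dvd_of_mul_dvd_mul_left (by norm_num) (show 52 * m ∣ 52 * 300 from hdS)
  have hTS : T ≤ S := hTN.trans hNS
  have hcT : Nat.card (T.subgroupOf S) = 13 := by
    rw [Nat.card_congr (Subgroup.subgroupOfEquivOfLe hTS).toEquiv, hT]
  have hfac : (Nat.card S).factorization 13 = 1 := by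
    have h300 : ¬ 13 ∣ 4 * m := fun h => by
      have := h.trans (Nat.mul_dvd_mul_left 4 hmd)
      norm_num at this
    have hm0 : 4 * m ≠ 0 := fun h => h300 (h ▸ dvd_zero _)
    rw [hm, show 52 * m = 13 ^ 1 * (4 * m) by ring, Nat.factorization_mul (by norm_num) hm0,
      Nat.Prime.factorization_pow (by norm_num)]
    simp [Nat.factorization_eq_zero_of_not_dvd h300]
  let P : Sylow 13 S := Sylow.ofCard (T.subgroupOf S) (by rw [hcT, hfac, pow_one])
  have hPn : Subgroup.normalizer (P : Set S) = N.subgroupOf S := by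
    ext ⟨g, hg⟩
    simp only [Subgroup.mem_subgroupOf, hN]
    refine ⟨fun h => ⟨hSK hg, ?_⟩, fun h => ?_⟩
    · replace h : (⟨g, hg⟩ : S) ∈ Subgroup.normalizer ((T.subgroupOf S : Subgroup S) : Set S) := h
      rw [Subgroup.mem_normalizer_iff] at h ⊢
      intro x
      constructor
      · intro hx
        exact (h ⟨x, hTS hx⟩).1 hx
      · intro hx
        have hxS : x ∈ S := by
          have := mul_mem (mul_mem (inv_mem hg) (hTS hx)) hg
          simpa [mul_assoc] using this
        exact (h ⟨x, hxS⟩).2 hx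
    · have h2 := h.2
      show (⟨g, hg⟩ : S) ∈ Subgroup.normalizer ((T.subgroupOf S : Subgroup S) : Set S)
      rw [Subgroup.mem_normalizer_iff] at h2 ⊢
      intro x
      exact h2 (x : G)
  have hidx : Nat.card (Sylow 13 S) = m := by
    rw [Sylow.card_eq_index_normalizer P, hPn]
    have := (N.subgroupOf S).card_mul_index
    rw [Nat.card_congr (Subgroup.subgroupOfEquivOfLe hNS).toEquiv, hN52, hm] at this
    exact Nat.eq_of_mul_eq_mul_left (by norm_num) this
  have hmod : m % 13 = 1 := hidx ▸ card_sylow_modEq_one 13 S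
  rcases dvd_cases (hmd.trans (by norm_num)) hmod with rfl | rfl | rfl
  · exact Or.inl (Subgroup.eq_of_le_of_card_ge hNS (by rw [hm, hN52])).symm
  · norm_num at hmd
  · exact Or.inr (Subgroup.eq_of_le_of_card_ge hSK (by rw [hm, hK]))

theorem exists_above_four (K : Subgroup G) (hK : 16 ∣ Nat.card K) (f : G) (hf : f ∈ K)
    (hord : orderOf f = 4) :
    ∃ h ∈ K, h ∉ Subgroup.zpowers f ∧ h ^ 2 ∈ Subgroup.zpowers f ∧
      (∀ M : Subgroup G, f ∈ M → h ∈ M → 8 ∣ Nat.card M) ∧
      (h * f * h⁻¹ = f ∨ h * f * h⁻¹ = f⁻¹) := by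
  haveI : Fact (Nat.Prime 2) := ⟨Nat.prime_two⟩
  let F : Subgroup K := Subgroup.zpowers ⟨f, hf⟩
  have hF : Nat.card F = 2 ^ 2 := by
    rw [Nat.card_zpowers, Subgroup.orderOf_mk, hord]
    norm_num
  obtain ⟨R, hR, hFR⟩ := Sylow.exists_subgroup_card_pow_succ (p := 2) (n := 2)
    ((show 2 ^ (2 + 1) ∣ 16 by norm_num).trans hK) hF
  haveI : Finite R := inferInstance
  have hidx : (F.subgroupOf R).index = 2 := by
    have := (F.subgroupOf R).card_mul_index
    rw [Nat.card_congr (Subgroup.subgroupOfEquivOfLe hFR).toEquiv, hF, hR] at this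
    omega
  have hn : (F.subgroupOf R).Normal := Subgroup.normal_of_index_eq_two hidx
  obtain ⟨h, hhF⟩ : ∃ h : R, h ∉ F.subgroupOf R := by
    by_contra hne
    push Not at hne
    have : F.subgroupOf R = ⊤ := eq_top_iff.2 fun x _ => hne x
    rw [this, Subgroup.index_top] at hidx
    omega
  have h2 : h ^ 2 ∈ F.subgroupOf R := by
    rw [sq]
    exact (Subgroup.mul_self_mem_of_index_two hidx h)
  have hconj : h * (⟨⟨f, hf⟩, hFR (Subgroup.mem_zpowers _)⟩ : R) * h⁻¹ ∈ F.subgroupOf R :=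
    hn.conj_mem _ (Subgroup.mem_zpowers _) h
  have hz : ∀ x : K, x ∈ F ↔ (x : G) ∈ Subgroup.zpowers f := fun x => by
    constructor
    · rintro ⟨k, rfl⟩
      exact ⟨k, by simp⟩
    · rintro ⟨k, hk⟩
      exact ⟨k, Subtype.ext (by simpa using hk)⟩
  refine ⟨((h : K) : G), (h : K).2, fun hm => hhF ((hz (h : K)).2 hm), ?_, ?_, ?_⟩
  · simpa using (hz _).1 h2
  · intro M hfM hhM
    have hle : R ≤ M.comap K.subtype := by
      intro r hr
      rcases Classical.em (r ∈ F) with hrF | hrF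
      · exact Subgroup.zpowers_le.2 (show (⟨f, hf⟩ : K) ∈ M.comap K.subtype from hfM) hrF
      · have hm := (Subgroup.mul_mem_iff_of_index_two hidx (a := (⟨r, hr⟩ : R)) (b := h⁻¹)).2
          ⟨fun h' => absurd h' hrF, fun h' => absurd (by simpa using h') hhF⟩
        have h3 : r * ((h : K))⁻¹ ∈ M.comap K.subtype :=
          Subgroup.zpowers_le.2 (show (⟨f, hf⟩ : K) ∈ M.comap K.subtype from hfM) hm
        have h4 := mul_mem h3 (show (h : K) ∈ M.comap K.subtype from hhM)
        simpa using h4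
    have h8 : Nat.card R ∣ Nat.card M := by
      rw [Nat.card_congr (R.equivMapOfInjective K.subtype K.subtype_injective).toEquiv]
      exact Subgroup.card_dvd_of_le (Subgroup.map_le_iff_le_comap.2 hle)
    rwa [hR] at h8
  have hm : ((h : K) : G) * f * ((h : K) : G)⁻¹ ∈ Subgroup.zpowers f := by
    simpa using (hz _).1 hconj
  have ho : orderOf (((h : K) : G) * f * ((h : K) : G)⁻¹) = 4 := by
    rw [← MulAut.conj_apply, MulEquiv.orderOf_eq, hord]
  obtain ⟨i, hi⟩ := (mem_powers_iff_mem_zpowers (x := f)).2 hm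
  simp only at hi
  rw [← hi, pow_mod_orderOf f i |>.symm] at ho ⊢
  rw [hord] at ho ⊢
  have h4 : i % 4 < 4 := Nat.mod_lt _ (by norm_num)
  interval_cases hj : i % 4
  · simp at ho
  · simp
  · rw [orderOf_pow' f (by norm_num), hord] at ho
    norm_num at ho
  · right
    rw [eq_inv_iff_mul_eq_one, ← pow_succ]
    rw [show 3 + 1 = orderOf f by rw [hord], pow_orderOf_eq_one]

theorem card_normalizer_mul (T K : Subgroup G) (hK : Nat.card K = 15600) (hT : Nat.card T = 13)
    (hTK : T ≤ K) : ∃ P : Sylow 13 K, (P : Subgroup K) = T.subgroupOf K ∧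
      Nat.card (K ⊓ Subgroup.normalizer (T : Set G) : Subgroup G) * Nat.card (Sylow 13 K) = 15600 := by
  haveI : Fact (Nat.Prime 13) := ⟨by norm_num⟩
  have hcT : Nat.card (T.subgroupOf K) = 13 := by
    rw [Nat.card_congr (Subgroup.subgroupOfEquivOfLe hTK).toEquiv, hT]
  have hfac : (Nat.card K).factorization 13 = 1 := by
    rw [hK, show (15600 : ℕ) = 13 ^ 1 * 1200 from rfl, Nat.factorization_mul (by norm_num) (by norm_num),
      Nat.Prime.factorization_pow (by norm_num)]
    simp [Nat.factorization_eq_zero_of_not_dvd (show ¬ 13 ∣ 1200 by norm_num)]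
  let P : Sylow 13 K := Sylow.ofCard (T.subgroupOf K) (by rw [hcT, hfac, pow_one])
  refine ⟨P, rfl, ?_⟩
  have hPn : Subgroup.normalizer (P : Set K) =
      (K ⊓ Subgroup.normalizer (T : Set G)).subgroupOf K := by
    ext ⟨g, hg⟩
    show (⟨g, hg⟩ : K) ∈ Subgroup.normalizer ((T.subgroupOf K : Subgroup K) : Set K) ↔
      g ∈ K ∧ g ∈ Subgroup.normalizer (T : Set G)
    rw [Subgroup.mem_normalizer_iff, Subgroup.mem_normalizer_iff]
    refine ⟨fun h => ⟨hg, fun x => ⟨fun hx => (h ⟨x, hTK hx⟩).1 hx, fun hx => ?_⟩⟩, fun h x => h.2 (x : G)⟩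
    have hxK : x ∈ K := by
      have := mul_mem (mul_mem (inv_mem hg) (hTK hx)) hg
      simpa [mul_assoc] using this
    exact (h ⟨x, hxK⟩).2 hx
  rw [Sylow.card_eq_index_normalizer P, hPn,
    ← Nat.card_congr (Subgroup.subgroupOfEquivOfLe (inf_le_left : K ⊓ Subgroup.normalizer (T : Set G) ≤ K)).toEquiv,
    Subgroup.card_mul_index, hK]

end Cfsg.Agent.H12.RuRec
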