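import Cfsg.Agent.H12.RuRec.Base
import Cfsg.Agent.H12.RuRec.OtherGroup

/-!
Every subgroup of order 15600 of the stabiliser of the first point fixes a point of the suborbit of
2304 points.
-/

set_option autoImplicit false
set_option maxRecDepth 100000

open Equiv Cfsg.Agent.H16 Cfsg.Agent.H36 Cfsg.Agent.H36.AutEngine Cfsg.Agent.H56.RuTits

namespace Cfsg.Agent.H12.RuRec

noncomputable section

theorem special_spec : codeOk tC = true ∧ codeOk fC = true ∧ codeOk nC = true ∧
    inB 358 = false ∧ inB 604 = false ∧ inB 1666 = false ∧ codeA fC = 2305 := by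
  have h := special_ok
  simp only [Bool.and_eq_true, Bool.not_eq_true'] at h
  obtain ⟨⟨⟨⟨⟨⟨⟨⟨h1, h2⟩, h3⟩, -⟩, -⟩, h6⟩, h7⟩, h8⟩, h9⟩ := h
  exact ⟨h1, h2, h3, h6, h7, h8, Nat.eq_of_beq_eq_true h9⟩

/-- The element of order thirteen. -/
def tE : Perm (Fin 4060) := el tC

/-- The element of order four. -/
def fE : Perm (Fin 4060) := el fC

/-- The element permuting the three points. -/
def nE : Perm (Fin 4060) := el nC

/-- The group of order thirteen. -/
def Tt : Subgroup (Perm (Fin 4060)) := Subgroup.zpowers tE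

/-- The stabiliser of two points. -/
def T358 : Subgroup (Perm (Fin 4060)) := Tg ⊓ MulAction.stabilizer (Perm (Fin 4060)) (pt 358 : Fin 4060)

/-- The normaliser of the group of order thirteen. -/
def NT : Subgroup (Perm (Fin 4060)) := Tg ⊓ Subgroup.normalizer (Tt : Set (Perm (Fin 4060)))

/-- The group of order 52. -/
def M0 : Subgroup (Perm (Fin 4060)) := Subgroup.closure {tE, fE}

theorem tE_mem : tE ∈ Tg := (el_spec special_spec.1).1

theorem fE_mem : fE ∈ Tg := (el_spec special_spec.2.1).1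

theorem nE_mem : nE ∈ Tg := (el_spec special_spec.2.2.1).1

theorem Tt_le : Tt ≤ Tg := Subgroup.zpowers_le.2 tE_mem

theorem fE_fix_2305 : fE (pt 2305) = pt 2305 := by
  rw [fE, (el_spec special_spec.2.1).2.2.2, special_spec.2.2.2.2.2.2]

theorem fixT_iff (x : Fin 4060) :
    tE x = x ↔ x = 0 ∨ x = pt 358 ∨ x = pt 604 ∨ x = pt 1666 := by
  have h := all4060_spec fixT_ok x
  simp only [forceNat_eq] at h
  rw [sameB_iff] at h
  have h1 : Nat.beq (ev tC x) x = true ↔ tE x = x := by
    rw [tE, Fin.ext_iff, el_val special_spec.1]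
    exact ⟨Nat.eq_of_beq_eq_true, fun e => by rw [e]; exact Nat.beq_refl _⟩
  have h2 : (Nat.beq (x : ℕ) 0 || memB fixT x) = true ↔
      x = 0 ∨ x = pt 358 ∨ x = pt 604 ∨ x = pt 1666 := by
    rw [Bool.or_eq_true, memB_iff]
    simp only [fixT, List.mem_cons, List.not_mem_nil, or_false, Fin.ext_iff,
      pt_val (show 358 < 4060 by omega), pt_val (show 604 < 4060 by omega),
      pt_val (show 1666 < 4060 by omega)]
    exact or_congr ⟨fun e => by simpa using Nat.eq_of_beq_eq_true e, fun e => by rw [e]; rfl⟩ Iff.rfl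
  rw [← h1, h, h2]

theorem fE_fix {c : ℕ} (hc : c ∈ fixT) : fE (pt c) = pt c := by
  have h := conj_ok
  simp only [Bool.and_eq_true, List.all_eq_true] at h
  refine el_fix special_spec.2.1 ?_ (h.2 c hc)
  simp only [fixT, List.mem_cons, List.not_mem_nil, or_false] at hc
  omega

theorem tE_fix {c : ℕ} (hc : c ∈ fixT) : tE (pt c) = pt c := by
  simp only [fixT, List.mem_cons, List.not_mem_nil, or_false] at hc
  rw [fixT_iff]
  rcases hc with rfl | rfl | rfl <;> simp

theorem nE_move : nE (pt 358) = pt 604 ∧ nE (pt 604) = pt 1666 := by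
  have h := conj_ok
  simp only [Bool.and_eq_true] at h
  exact ⟨by rw [nE, el_pt special_spec.2.2.1 (by omega), Nat.eq_of_beq_eq_true h.1.1.2],
    by rw [nE, el_pt special_spec.2.2.1 (by omega), Nat.eq_of_beq_eq_true h.1.2]⟩

theorem M0_fix {c : ℕ} (hc : c ∈ fixT) : ∀ g ∈ M0, g (pt c) = pt c := by
  suffices h : M0 ≤ MulAction.stabilizer (Perm (Fin 4060)) (pt c : Fin 4060) from fun g hg => h hg
  refine (Subgroup.closure_le _).2 ?_
  rintro g (rfl | rfl)
  exacts [tE_fix hc, fE_fix hc]

theorem M0_le : M0 ≤ Tg := by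
  refine (Subgroup.closure_le _).2 ?_
  rintro g (rfl | rfl)
  exacts [tE_mem, fE_mem]

theorem isB_of_code {k : ℕ} (hk : codeOk k = true) : inB (codeA k) = true := by
  simp [inB, Bool.eq_false_iff, (codeOk_spec hk).1.2]

variable (hcard : Nat.card ruPerm = 145926144000)

include hcard

theorem pow_eq_of_base {k n : ℕ} (hk : codeOk k = true) {f : ℕ → ℕ} {g : Perm (Fin 4060)} (hg : g ∈ Tg)
    (hf : ∀ x : Fin 4060, ((g x : Fin 4060) : ℕ) = f x) (h : baseEq (iterPt (ev k) n) f = true) :
    el k ^ n = g :=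
  eq_of_baseEq hcard (Tg.pow_mem (el_spec hk).1 n) hg (fun x => (iterPt_el hk n x).symm) hf h

theorem orderOf_tE : orderOf tE = 13 := by
  haveI : Fact (Nat.Prime 13) := ⟨by norm_num⟩
  have h := order_ok
  simp only [Bool.and_eq_true, Bool.not_eq_true'] at h
  refine orderOf_eq_prime (pow_eq_of_base hcard special_spec.1 Tg.one_mem (fun x => rfl) h.1.1.1.1.1) ?_
  intro e
  have := baseEq_of_eq hcard (g := tE) (el_val special_spec.1) (f' := fun b => b) fun x => by rw [e]; rfl
  rw [h.1.1.1.1.2] at this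
  exact Bool.noConfusion this

theorem orderOf_fE : orderOf fE = 4 := by
  haveI : Fact (Nat.Prime 2) := ⟨Nat.prime_two⟩
  have h := order_ok
  simp only [Bool.and_eq_true, Bool.not_eq_true'] at h
  refine orderOf_eq_prime_pow (p := 2) (n := 1) ?_ ?_
  · intro e
    change fE ^ 2 = 1 at e
    have := baseEq_of_eq hcard (g := fE ^ 2) (f := iterPt (ev fC) 2)
      (fun x => (iterPt_el special_spec.2.1 2 x).symm) (f' := fun b => b) fun x => by rw [e]; rfl
    rw [h.1.1.2] at this
    exact Bool.noConfusion this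
  · show fE ^ 4 = 1
    exact pow_eq_of_base hcard special_spec.2.1 Tg.one_mem (fun x => rfl) h.1.1.1.2

theorem card_Tt : Nat.card Tt = 13 := by
  rw [Tt, Nat.card_zpowers, orderOf_tE hcard]

theorem mem_normalizer_Tt {g : Perm (Fin 4060)} (h : g * tE * g⁻¹ ∈ Tt) :
    g ∈ Subgroup.normalizer (Tt : Set (Perm (Fin 4060))) := by
  have hle : Tt.map (MulAut.conj g).toMonoidHom ≤ Tt :=
    Subgroup.map_le_iff_le_comap.2 (Subgroup.zpowers_le.2 (show g * tE * g⁻¹ ∈ Tt from h))
  have heq : Tt.map (MulAut.conj g).toMonoidHom = Tt := Subgroup.eq_of_le_of_card_ge hle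
    (le_of_eq (Nat.card_congr (Tt.equivMapOfInjective (MulAut.conj g).toMonoidHom
      (MulAut.conj g).injective).toEquiv))
  rw [Subgroup.mem_normalizer_iff]
  intro x
  conv_rhs => rw [← heq]
  simp only [Subgroup.mem_map, MulEquiv.coe_toMonoidHom, MulAut.conj_apply]
  refine ⟨fun hx => ⟨x, hx, rfl⟩, fun ⟨y, hy, e⟩ => ?_⟩
  have : y = x := by simpa using e
  exact this ▸ hy

theorem fE_normalizer : fE ∈ Subgroup.normalizer (Tt : Set (Perm (Fin 4060))) := by
  have h := conj_ok
  simp only [Bool.and_eq_true] at h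
  refine mem_normalizer_Tt hcard (Subgroup.mem_zpowers_iff.2 ⟨(eF : ℤ), ?_⟩)
  rw [zpow_natCast]
  refine pow_eq_of_base hcard special_spec.1 (Tg.mul_mem (Tg.mul_mem fE_mem tE_mem) (Tg.inv_mem fE_mem))
    (f := fun b => ev fC (ev tC (evI fC b))) (fun x => ?_) ?_
  · rw [fE, tE, Perm.mul_apply, Perm.mul_apply, el_val special_spec.2.1, el_val special_spec.1,
      (el_spec special_spec.2.1).2.2.1]
  · have := h.1.1.1.1
    rw [baseEq_iff] at this ⊢
    exact ⟨this.1.symm, this.2.1.symm, this.2.2.symm⟩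

theorem nE_normalizer : nE ∈ Subgroup.normalizer (Tt : Set (Perm (Fin 4060))) := by
  have h := conj_ok
  simp only [Bool.and_eq_true] at h
  refine mem_normalizer_Tt hcard (Subgroup.mem_zpowers_iff.2 ⟨(eN : ℤ), ?_⟩)
  rw [zpow_natCast]
  refine pow_eq_of_base hcard special_spec.1 (Tg.mul_mem (Tg.mul_mem nE_mem tE_mem) (Tg.inv_mem nE_mem))
    (f := fun b => ev nC (ev tC (evI nC b))) (fun x => ?_) ?_
  · rw [nE, tE, Perm.mul_apply, Perm.mul_apply, el_val special_spec.2.2.1, el_val special_spec.1,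
      (el_spec special_spec.2.2.1).2.2.1]
  · have := h.1.1.1.2
    rw [baseEq_iff] at this ⊢
    exact ⟨this.1.symm, this.2.1.symm, this.2.2.symm⟩

theorem M0_le_NT : M0 ≤ NT := by
  refine (Subgroup.closure_le _).2 ?_
  rintro g (rfl | rfl)
  · exact ⟨tE_mem, mem_normalizer_Tt hcard (by simp [Tt])⟩
  · exact ⟨fE_mem, fE_normalizer hcard⟩

theorem dvd_card_M0 : 52 ∣ Nat.card M0 := by
  have h1 : 13 ∣ Nat.card M0 := by
    rw [← orderOf_tE hcard, ← Nat.card_zpowers]
    exact Subgroup.card_dvd_of_le (Subgroup.zpowers_le.2 (Subgroup.subset_closure (Or.inl rfl)))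
  have h2 : 4 ∣ Nat.card M0 := by
    rw [← orderOf_fE hcard, ← Nat.card_zpowers]
    exact Subgroup.card_dvd_of_le (Subgroup.zpowers_le.2 (Subgroup.subset_closure (Or.inr rfl)))
  exact Nat.Coprime.mul_dvd_of_dvd_of_dvd (by norm_num : Nat.Coprime 4 13) h2 h1

theorem card_T358 : Nat.card T358 = 15600 := by
  classical
  have hC : MulAction.orbit Tg (pt 358 : Fin 4060) = {x : Fin 4060 | x ≠ 0 ∧ ¬ IsB x} := by
    ext x
    constructor
    · rintro ⟨⟨g, hg⟩, rfl⟩
      refine ⟨fun e => ?_, fun hx => ?_⟩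
      · have e' : g (pt 358) = g 0 := (show g (pt 358) = 0 from e).trans (mem_Tg.1 hg).2.symm
        have := congrArg Fin.val (g.injective e')
        rw [pt_val (by omega)] at this
        exact absurd this (by simp)
      · have := (isB_apply_iff hcard hg).1 (show IsB (g (pt 358)) from hx)
        rw [IsB, pt_val (by omega), special_spec.2.2.2.1] at this
        exact Bool.noConfusion this
    · rintro ⟨h0, hB⟩
      have hgen : ∀ k ∈ genC, el k ∈ Tg := fun k hk => by
        have h := forC_ok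
        simp only [forestOk, Bool.and_eq_true, List.all_eq_true] at h
        exact (el_spec (h.1 k hk)).1
      obtain ⟨-, -, g, hg, e⟩ := forest_mem forC_ok hgen x
      have hr := all4060_spec rootC_ok x
      simp only [Bool.or_eq_true] at hr
      rcases hr with (h | h) | h
      · exact absurd (Fin.ext (by simpa using Nat.eq_of_beq_eq_true h)) h0
      · exact absurd h hB
      · rw [Nat.eq_of_beq_eq_true h] at e
        exact ⟨⟨g, hg⟩, e⟩
  have hcC : ({x : Fin 4060 | x ≠ 0 ∧ ¬ IsB x} : Set (Fin 4060)).ncard = 2304 := by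
    rw [ncard_of_countFrom (fun x => !(Nat.beq x 0) && !(inB x)) _ fun x => by
      simp only [Set.mem_setOf_eq, IsB, Bool.not_eq_true, Bool.and_eq_true, Bool.not_eq_true']
      refine and_congr_left' ?_
      rw [Bool.eq_false_iff, Ne, Fin.ext_iff]
      exact not_congr ⟨fun e => by rw [e]; rfl, fun e => Nat.eq_of_beq_eq_true e⟩]
    exact Nat.eq_of_beq_eq_true (by decide +kernel)
  have h : Nat.card Tg = Nat.card (MulAction.orbit Tg (pt 358 : Fin 4060)) * Nat.card T358 :=
    Ctx.card_orbit_mul (D := ctxG) Tg (pt 358 : Fin 4060)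
  rw [Nat.card_coe_set_eq, hC, hcC, card_Tg hcard] at h
  omega

theorem mem_T358_of_code {k : ℕ} (hk : codeOk k = true) (h : Nat.beq (ev k 358) 358 = true) :
    el k ∈ T358 :=
  ⟨(el_spec hk).1, el_fix hk (by omega) h⟩

theorem card_T358_normalizer :
    Nat.card (T358 ⊓ Subgroup.normalizer (Tt : Set (Perm (Fin 4060))) : Subgroup (Perm (Fin 4060))) = 52 := by
  classical
  haveI : Fact (Nat.Prime 13) := ⟨by norm_num⟩
  have ht : tE ∈ T358 := ⟨tE_mem, tE_fix (by simp [fixT])⟩
  obtain ⟨P, hP, hmul⟩ := card_normalizer_mul Tt T358 (card_T358 hcard) (card_Tt hcard)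
    (Subgroup.zpowers_le.2 ht)
  have hc := conjT_ok
  simp only [Bool.and_eq_true, List.all_eq_true] at hc
  obtain ⟨⟨hlen, hall⟩, hsep⟩ := hc
  have hlen' : conjT.length = 41 := Nat.eq_of_beq_eq_true hlen
  have hmem : ∀ i : Fin 41, el (getN conjT i) ∈ T358 := fun i =>
    have h := hall _ (getN_mem _ (hlen'.symm ▸ i.2))
    mem_T358_of_code hcard h.1 h.2
  let Φ : Fin 41 → Sylow 13 T358 := fun i => (⟨el (getN conjT i), hmem i⟩ : T358) • P
  have hinj : Function.Injective Φ := by
    intro i j hij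
    by_contra hne
    have hi := (hall _ (getN_mem _ (hlen'.symm ▸ i.2) : getN conjT i ∈ conjT)).1
    have hj := (hall _ (getN_mem _ (hlen'.symm ▸ j.2) : getN conjT j ∈ conjT)).1
    set a : T358 := ⟨el (getN conjT i), hmem i⟩ with ha
    set b : T358 := ⟨el (getN conjT j), hmem j⟩ with hb
    have heq : (b⁻¹ * a) • P = P := by
      rw [mul_smul, show a • P = b • P from hij, inv_smul_smul]
    rw [Sylow.smul_eq_iff_mem_normalizer] at heq
    have hn : ((b⁻¹ * a : T358) : Perm (Fin 4060)) ∈ Subgroup.normalizer (Tt : Set (Perm (Fin 4060))) := by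
      refine mem_normalizer_Tt hcard ?_
      have h1 : (⟨tE, ht⟩ : T358) ∈ (P : Subgroup T358) := by
        rw [hP]; exact Subgroup.mem_zpowers tE
      have h2 := (Subgroup.mem_normalizer_iff.1 heq _).1 h1
      change _ ∈ (P : Subgroup T358) at h2
      rw [hP] at h2
      exact h2
    have hfix : ∀ x, tE x = x → tE (((b⁻¹ * a : T358) : Perm (Fin 4060)) x) =
        ((b⁻¹ * a : T358) : Perm (Fin 4060)) x := by
      intro x hx
      set g := ((b⁻¹ * a : T358) : Perm (Fin 4060))
      have h3 : g⁻¹ * tE * g ∈ Tt := by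
        have := (Subgroup.mem_normalizer_iff.1 (inv_mem hn) tE).1 (Subgroup.mem_zpowers tE)
        simpa using this
      have h4 : Tt ≤ MulAction.stabilizer (Perm (Fin 4060)) x := Subgroup.zpowers_le.2 hx
      have h5 : (g⁻¹ * tE * g) x = x := h4 h3
      rw [Perm.mul_apply, Perm.mul_apply] at h5
      exact Perm.inv_eq_iff_eq.1 h5
    have hw : ∀ c : ℕ, c ∈ [604, 1666] → ev (getN conjT i) c = ev (getN conjT j) 604 ∨
        ev (getN conjT i) c = ev (getN conjT j) 1666 := by
      intro c hc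
      simp only [List.mem_cons, List.not_mem_nil, or_false] at hc
      have hc' : c < 4060 := by omega
      have h0 := hfix (pt c) (tE_fix (by simp [fixT]; tauto))
      rw [fixT_iff] at h0
      have hval : ((a : Perm (Fin 4060)) (pt c) : Fin 4060) = (b : Perm (Fin 4060))
          (((b⁻¹ * a : T358) : Perm (Fin 4060)) (pt c)) := by simp
      have hca : ((((a : Perm (Fin 4060)) (pt c)) : Fin 4060) : ℕ) = ev (getN conjT i) c := by
        rw [ha]; exact (el_val hi (pt c)).trans (by rw [pt_val hc'])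
      rw [hval] at hca
      rcases h0 with e | e | e | e
      · exfalso
        have e2 : (a : Perm (Fin 4060)) (pt c) = (a : Perm (Fin 4060)) 0 := by
          rw [hval, e, (mem_Tg.1 a.2.1).2, (mem_Tg.1 b.2.1).2]
        have := congrArg Fin.val (Equiv.injective _ e2)
        rw [pt_val hc'] at this
        simp at this
        omega
      · exfalso
        have e2 : (a : Perm (Fin 4060)) (pt c) = (a : Perm (Fin 4060)) (pt 358) := by
          rw [hval, e, show (a : Perm (Fin 4060)) (pt 358) = pt 358 from a.2.2,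
            show (b : Perm (Fin 4060)) (pt 358) = pt 358 from b.2.2]
        have := congrArg Fin.val (Equiv.injective _ e2)
        rw [pt_val hc', pt_val (by omega)] at this
        omega
      · left
        rw [e] at hca
        rw [← hca, hb]; exact (el_val hj (pt 604)).trans (by rw [pt_val (by omega)])
      · right
        rw [e] at hca
        rw [← hca, hb]; exact (el_val hj (pt 1666)).trans (by rw [pt_val (by omega)])
    have h := allFrom_spec (allFrom_spec hsep (i : ℕ) (Nat.zero_le _) (by omega)) (j : ℕ)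
      (Nat.zero_le _) (by omega)
    have hij' : Nat.beq (i : ℕ) j = false := by
      rw [Bool.eq_false_iff]
      exact fun e => hne (Fin.ext (Nat.eq_of_beq_eq_true e))
    simp only [forceNat_eq, hij', Bool.false_or, Bool.or_eq_true, Bool.not_eq_true'] at h
    rcases h with h | h
    · rcases hw 604 (by simp) with e | e <;> simp [e] at h
    · rcases hw 1666 (by simp) with e | e <;> simp [e] at h
  have h41 : 41 ≤ Nat.card (Sylow 13 T358) := by
    rw [← Nat.card_fin 41]
    exact Nat.card_le_card_of_injective Φ hinj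
  rcases card_sylow_cases (card_T358 hcard) P with e | e | e <;> rw [e] at h41 hmul <;> omega

theorem NT_facts : Nat.card NT = 156 ∧ Nat.card M0 = 52 ∧
    ∀ g ∈ NT, ∀ c ∈ fixT, g (pt c) = pt c → g ∈ M0 := by
  classical
  have hM0N : M0 ≤ T358 ⊓ Subgroup.normalizer (Tt : Set (Perm (Fin 4060))) := fun g hg =>
    ⟨⟨M0_le hg, M0_fix (by simp [fixT]) g hg⟩, (M0_le_NT hcard hg).2⟩
  have hM : M0 = T358 ⊓ Subgroup.normalizer (Tt : Set (Perm (Fin 4060))) :=
    Subgroup.eq_of_le_of_card_ge hM0N (by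
      rw [card_T358_normalizer hcard]
      exact Nat.le_of_dvd Nat.card_pos (dvd_card_M0 hcard))
  have hc0 : Nat.card M0 = 52 := by rw [hM, card_T358_normalizer hcard]
  have hn : nE ∈ NT := ⟨nE_mem, nE_normalizer hcard⟩
  have horb : MulAction.orbit NT (pt 358 : Fin 4060) = {pt 358, pt 604, pt 1666} := by
    ext x
    constructor
    · rintro ⟨⟨g, hg⟩, rfl⟩
      have h1 : g⁻¹ * tE * g ∈ Tt := by
        have := (Subgroup.mem_normalizer_iff.1 (inv_mem hg.2) tE).1 (Subgroup.mem_zpowers tE)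
        simpa using this
      have h4 : Tt ≤ MulAction.stabilizer (Perm (Fin 4060)) (pt 358 : Fin 4060) :=
        Subgroup.zpowers_le.2 (tE_fix (by simp [fixT]))
      have h5 : tE (g (pt 358)) = g (pt 358) := by
        have := h4 h1
        change (g⁻¹ * tE * g) (pt 358) = pt 358 at this
        rw [Perm.mul_apply, Perm.mul_apply] at this
        exact Perm.inv_eq_iff_eq.1 this
      rw [fixT_iff] at h5
      rcases h5 with e | e | e | e
      · exfalso
        have := congrArg Fin.val (g.injective (e.trans (mem_Tg.1 hg.1).2.symm))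
        rw [pt_val (by omega)] at this
        simp at this
      all_goals
        show g (pt 358) ∈ _
        rw [e]
        simp
    · rintro (rfl | rfl | rfl)
      · exact MulAction.mem_orbit_self _
      · exact ⟨⟨nE, hn⟩, nE_move.1⟩
      · exact ⟨⟨nE * nE, mul_mem hn hn⟩, by
          show (nE * nE) (pt 358) = pt 1666
          rw [Perm.mul_apply, nE_move.1, nE_move.2]⟩
  have hNT : Nat.card NT = 156 := by
    have h : Nat.card NT = Nat.card (MulAction.orbit NT (pt 358 : Fin 4060)) *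
        Nat.card (NT ⊓ MulAction.stabilizer (Perm (Fin 4060)) (pt 358 : Fin 4060) :
          Subgroup (Perm (Fin 4060))) := Ctx.card_orbit_mul (D := ctxG) NT (pt 358 : Fin 4060)
    rw [Nat.card_coe_set_eq, horb, Set.ncard_eq_three.2 ⟨_, _, _, pt_ne (by omega) (by omega) (by omega),
      pt_ne (by omega) (by omega) (by omega), pt_ne (by omega) (by omega) (by omega), rfl⟩] at h
    rw [show (NT ⊓ MulAction.stabilizer (Perm (Fin 4060)) (pt 358 : Fin 4060)) =
      T358 ⊓ Subgroup.normalizer (Tt : Set (Perm (Fin 4060))) from inf_right_comm _ _ _,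
      card_T358_normalizer hcard] at h
    exact h
  refine ⟨hNT, hc0, fun g hg c hc hfix => ?_⟩
  obtain ⟨m, hm, hmc⟩ : ∃ m ∈ NT, m (pt 358) = (pt c : Fin 4060) := by
    have : (pt c : Fin 4060) ∈ MulAction.orbit NT (pt 358 : Fin 4060) := by
      rw [horb]
      simp only [fixT, List.mem_cons, List.not_mem_nil, or_false] at hc
      rcases hc with rfl | rfl | rfl <;> simp
    obtain ⟨⟨m, hm⟩, e⟩ := this
    exact ⟨m, hm, e⟩
  have hle : M0.map (MulAut.conj m⁻¹).toMonoidHom ≤ M0 := by
    rintro _ ⟨y, hy, rfl⟩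
    rw [MulEquiv.coe_toMonoidHom, MulAut.conj_apply, inv_inv]
    conv => rw [hM]
    have h1 : m⁻¹ * y * m ∈ NT := mul_mem (mul_mem (inv_mem hm) (M0_le_NT hcard hy)) hm
    refine ⟨⟨h1.1, ?_⟩, h1.2⟩
    show (m⁻¹ * y * m) (pt 358) = pt 358
    rw [Perm.mul_apply, Perm.mul_apply, hmc, M0_fix hc y hy, ← hmc]
    exact m.symm_apply_apply _
  have heq : M0.map (MulAut.conj m⁻¹).toMonoidHom = M0 := Subgroup.eq_of_le_of_card_ge hle
    (le_of_eq (Nat.card_congr (M0.equivMapOfInjective (MulAut.conj m⁻¹).toMonoidHom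
      (MulAut.conj m⁻¹).injective).toEquiv))
  have h2 : m⁻¹ * g * m ∈ M0 := by
    rw [hM]
    have h1 : m⁻¹ * g * m ∈ NT := mul_mem (mul_mem (inv_mem hm) hg) hm
    refine ⟨⟨h1.1, ?_⟩, h1.2⟩
    show (m⁻¹ * g * m) (pt 358) = pt 358
    rw [Perm.mul_apply, Perm.mul_apply, hmc, hfix, ← hmc]
    exact m.symm_apply_apply _
  rw [← heq] at h2
  obtain ⟨y, hy, e⟩ := h2
  rw [MulEquiv.coe_toMonoidHom, MulAut.conj_apply, inv_inv] at e
  have : y = g := by simpa using e
  exact this ▸ hy

theorem M0_le_of_tE (K : Subgroup (Perm (Fin 4060))) (hK : K ≤ Tg) (hc : Nat.card K = 15600)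
    (ht : tE ∈ K) : M0 ≤ K ∧
      ∀ g, g ∈ M0 ↔ g ∈ K ∧ g ∈ Subgroup.normalizer (Tt : Set (Perm (Fin 4060))) := by
  classical
  haveI : Fact (Nat.Prime 13) := ⟨by norm_num⟩
  haveI : Fact (Nat.Prime 2) := ⟨Nat.prime_two⟩
  obtain ⟨hNT, hM0, hfixM⟩ := NT_facts hcard
  have hTK : Tt ≤ K := Subgroup.zpowers_le.2 ht
  obtain ⟨P, -, hmul⟩ := card_normalizer_mul Tt K hc (card_Tt hcard) hTK
  set NK := K ⊓ Subgroup.normalizer (Tt : Set (Perm (Fin 4060))) with hNK
  have hle : NK ≤ NT := fun g hg => ⟨hK hg.1, hg.2⟩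
  have hdvd : Nat.card NK ∣ 156 := hNT ▸ Subgroup.card_dvd_of_le hle
  have hcNK : Nat.card NK = 52 := by
    have hle' : Nat.card NK ≤ 156 := Nat.le_of_dvd (by norm_num) hdvd
    rcases card_sylow_cases hc P with e | e | e <;> rw [e] at hmul <;> omega
  obtain ⟨R, hR⟩ := Sylow.exists_subgroup_card_pow_prime (G := NK) 2 (n := 2) (by rw [hcNK]; norm_num)
  have hp : IsPGroup 2 R := IsPGroup.of_card hR
  let S : Set (Fin 4060) := MulAction.orbit NT (pt 358 : Fin 4060)
  have hfix : ∃ c ∈ fixT, ∀ r : R, ((r : NK) : Perm (Fin 4060)) (pt c) = pt c := by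
    have hperm : ∀ (g : Perm (Fin 4060)), g ∈ NT → ∀ c ∈ fixT, ∃ c' ∈ fixT, g (pt c) = pt c' := by
      intro g hg c hc
      have h1 : g⁻¹ * tE * g ∈ Tt := by
        have := (Subgroup.mem_normalizer_iff.1 (inv_mem hg.2) tE).1 (Subgroup.mem_zpowers tE)
        simpa using this
      have h4 : Tt ≤ MulAction.stabilizer (Perm (Fin 4060)) (pt c : Fin 4060) :=
        Subgroup.zpowers_le.2 (tE_fix hc)
      have h5 : tE (g (pt c)) = g (pt c) := by
        have := h4 h1
        change (g⁻¹ * tE * g) (pt c) = pt c at this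
        rw [Perm.mul_apply, Perm.mul_apply] at this
        exact Perm.inv_eq_iff_eq.1 this
      rw [fixT_iff] at h5
      simp only [fixT, List.mem_cons, List.not_mem_nil, or_false] at hc
      rcases h5 with e | e | e | e
      · exfalso
        have := congrArg Fin.val (g.injective (e.trans (mem_Tg.1 hg.1).2.symm))
        rw [pt_val (by omega)] at this
        simp at this
        omega
      · exact ⟨358, by simp [fixT], e⟩
      · exact ⟨604, by simp [fixT], e⟩
      · exact ⟨1666, by simp [fixT], e⟩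
    let X := {x : Fin 4060 // ∃ c ∈ fixT, x = pt c}
    letI : MulAction R X :=
      { smul := fun r x => ⟨((r : NK) : Perm (Fin 4060)) x.1, by
          obtain ⟨c, hc, e⟩ := x.2
          obtain ⟨c', hc', e'⟩ := hperm _ (hle (r : NK).2) c hc
          exact ⟨c', hc', e ▸ e'⟩⟩
        one_smul := fun x => Subtype.ext rfl
        mul_smul := fun a b x => Subtype.ext rfl }
    have hX : Nat.card X = 3 := by
      rw [show Nat.card X = ({pt 358, pt 604, pt 1666} : Set (Fin 4060)).ncard from ?_]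
      · exact Set.ncard_eq_three.2 ⟨_, _, _, pt_ne (by omega) (by omega) (by omega),
          pt_ne (by omega) (by omega) (by omega), pt_ne (by omega) (by omega) (by omega), rfl⟩
      · rw [← Nat.card_coe_set_eq]
        exact Nat.card_congr (Equiv.subtypeEquivRight fun x => by simp [fixT])
    obtain ⟨⟨x, c, hc, rfl⟩, hx⟩ := hp.nonempty_fixed_point_of_prime_not_dvd_card X (by rw [hX]; norm_num)
    exact ⟨c, hc, fun r => congrArg Subtype.val (hx r)⟩
  obtain ⟨c, hc', hcfix⟩ := hfix
  have hRle : R.map NK.subtype ≤ NK ⊓ M0 := by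
    rintro _ ⟨r, hr, rfl⟩
    exact ⟨r.2, hfixM _ (hle r.2) c hc' (hcfix ⟨r, hr⟩)⟩
  have htM : tE ∈ NK ⊓ M0 :=
    ⟨⟨ht, mem_normalizer_Tt hcard (by simp [Tt])⟩, Subgroup.subset_closure (Or.inl rfl)⟩
  have h52 : 52 ∣ Nat.card (NK ⊓ M0 : Subgroup (Perm (Fin 4060))) := by
    refine Nat.Coprime.mul_dvd_of_dvd_of_dvd (by norm_num : Nat.Coprime 4 13) ?_ ?_
    · refine dvd_trans ?_ (Subgroup.card_dvd_of_le hRle)
      rw [← Nat.card_congr (R.equivMapOfInjective NK.subtype NK.subtype_injective).toEquiv, hR]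
      norm_num
    · rw [← orderOf_tE hcard, ← Nat.card_zpowers]
      exact Subgroup.card_dvd_of_le (Subgroup.zpowers_le.2 htM)
  have h52' := Nat.le_of_dvd Nat.card_pos h52
  have e1 : NK ⊓ M0 = NK := Subgroup.eq_of_le_of_card_ge inf_le_left (by rw [hcNK]; exact h52')
  have e2 : NK ⊓ M0 = M0 := Subgroup.eq_of_le_of_card_ge inf_le_right (by rw [hM0]; exact h52')
  have e : M0 = NK := e2.symm.trans e1
  exact ⟨e.le.trans inf_le_left, fun g => by rw [e]; rfl⟩

theorem fixes_of_tE (K : Subgroup (Perm (Fin 4060))) (hK : K ≤ Tg) (hc : Nat.card K = 15600)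
    (ht : tE ∈ K) : ∃ x : Fin 4060, x ≠ 0 ∧ ¬ IsB x ∧ ∀ g ∈ K, g x = x := by
  classical
  obtain ⟨hM0K, hM0⟩ := M0_le_of_tE hcard K hK hc ht
  have hc0 : Nat.card M0 = 52 := (NT_facts hcard).2.1
  have hfM : fE ∈ M0 := Subgroup.subset_closure (Or.inr rfl)
  have htM : tE ∈ M0 := Subgroup.subset_closure (Or.inl rfl)
  obtain ⟨h, hhK, hhf, hh2, hh8, hconj⟩ :=
    exists_above_four K (by rw [hc]; norm_num) fE (hM0K hfM) (orderOf_fE hcard)
  have hhM : h ∉ M0 := fun hm => by
    have := hh8 M0 hfM hm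
    rw [hc0] at this
    norm_num at this
  have hT := hK hhK
  obtain ⟨k, hk, hek⟩ := exists_code hcard hT
  obtain ⟨⟨ha, hra⟩, ⟨hb, hrb⟩, hcl, hrc⟩ := codeOk_spec hk
  set a := codeA k with hadef
  set b := codeB k with hbdef
  set c := codeC k with hcdef
  obtain ⟨cA, cB, cC⟩ := code_fields ha hb hcl
  set k' := a + 4096 * (b + 4096 * c) with hk'def
  have hk' : codeOk k' = true := by
    simp only [codeOk, cA, cB, cC]
    simpa only [codeOk] using hk
  have hek' : h = el k' := by
    rw [hek]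
    simp only [el, cA, cB, cC]
    rfl
  have hfC := special_spec.2.1
  obtain ⟨f', fP, hrel, hval, hscan, hfix'⟩ : ∃ (f' : ℕ → ℕ) (fP : Perm (Fin 4060)),
      h * fE = fP * h ∧ (∀ x : Fin 4060, ((fP x : Fin 4060) : ℕ) = f' x) ∧
      all4060 (fun b => forceNat b fun b => Nat.beq (Ctx.rank gLev2 b) 0 ||
        fixF.all fun a => candScan a b f') = true ∧ ∀ x, fP x = x → fE x = x := by
    rcases hconj with e | e
    · exact ⟨ev fC, fE, mul_inv_eq_iff_eq_mul.1 e, el_val hfC, candPos_ok, fun x hx => hx⟩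
    · exact ⟨evI fC, fE⁻¹, mul_inv_eq_iff_eq_mul.1 e, (el_spec hfC).2.2.1, candNeg_ok,
        fun x hx => (Perm.inv_eq_iff_eq.1 hx).symm⟩
  have hrel' : ∀ x, fP (h x) = h (fE x) := fun x => by
    rw [← Perm.mul_apply, ← hrel, Perm.mul_apply]
  have h2305 : h (pt 2305) = pt a := by rw [hek]; exact (el_spec hk).2.2.2
  have hfa : fE (pt a) = pt a := by
    refine hfix' _ ?_
    rw [← h2305, hrel', fE_fix_2305]
  have haF : a ∈ fixF := by
    have h1 := all4060_lt fixF_ok ha
    simp only [forceNat_eq, Bool.or_eq_true] at h1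
    rcases h1 with h1 | h1
    · exfalso
      have e1 : ev fC a = a := by
        have := el_val hfC (pt a)
        rw [pt_val ha] at this
        rw [← this, show el fC (pt a) = pt a from hfa, pt_val ha]
      rw [show inB a = true from isB_of_code hk, e1, Bool.true_and, Bool.not_eq_true'] at h1
      rw [Nat.beq_refl] at h1
      exact Bool.noConfusion h1
    · exact memB_iff.1 h1
  have hc20 := cs20_ok
  simp only [Bool.and_eq_true] at hc20
  obtain ⟨⟨hc1, hc2⟩, hc3⟩ := hc20
  have hcF : c ∈ cs20 := by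
    have h1 := all4060_lt hc1 hcl
    rw [Bool.or_eq_true] at h1
    rcases h1 with h1 | h1
    · exact absurd (Nat.eq_of_beq_eq_true h1) hrc
    · exact memB_iff.1 h1
  obtain ⟨i, hi, hci⟩ := List.mem_iff_getElem.1 hcF
  have hi20 : i < 20 := (Nat.eq_of_beq_eq_true hc3) ▸ hi
  have hget : getN cs20 i = c := by
    rw [getN_eq_getD, List.getD_eq_getElem _ _ hi, hci]
  have hws : stepUp gLev3 c (ev fC 2306) = getN ws20 i := by
    have h1 := allFrom_spec hc2 i (Nat.zero_le _) (by omega)
    simp only [Bool.and_eq_true, hget] at h1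
    exact Nat.eq_of_beq_eq_true h1.2
  have hgood : candGood k' f' = true := by
    have h1 := all4060_lt hscan hb
    simp only [forceNat_eq, Bool.or_eq_true, List.all_eq_true] at h1
    rcases h1 with h1 | h1
    · exact absurd (Nat.eq_of_beq_eq_true h1) hrb
    have h2 := h1 a haF
    simp only [candScan, forceNat_eq] at h2
    have h3 := allFrom_spec h2 i (Nat.zero_le _) (by omega)
    rw [Bool.or_eq_true] at h3
    rcases h3 with h3 | h3
    · exfalso
      obtain ⟨-, l1, l2, l3⟩ := levels_split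
      obtain ⟨m1, b1, f1, u1, d1⟩ := step_spec l1 ha hra
      obtain ⟨m2, b2, f2, u2, d2⟩ := step_spec l2 hb hrb
      obtain ⟨m3, b3, f3, u3, d3⟩ := step_spec l3 hcl hrc
      have hh : h = tv gLev1 a * tv gLev2 b * tv gLev3 c := hek
      have h2306 : h (pt 2306) = tv gLev1 a (pt b) := by
        rw [hh, Perm.mul_apply, Perm.mul_apply, f3 (pt 2306) (by simp [pt_val]),
          b2 (pt 2306) (pt_val (by omega))]
      have ez : stepUp gLev1 a b = (h (pt 2306) : Fin 4060) := by
        rw [h2306, u1, pt_val hb]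
      have ez' : f' (stepUp gLev1 a b) = (h (fE (pt 2306)) : Fin 4060) := by
        rw [ez, ← hval, hrel']
      have ey : stepDn gLev1 a (f' (stepUp gLev1 a b)) =
          (tv gLev2 b (tv gLev3 c (fE (pt 2306))) : Fin 4060) := by
        rw [ez', ← d1, hh, Perm.mul_apply, Perm.mul_apply, Perm.inv_eq_iff_eq.2 rfl]
      have et : stepDn gLev2 b (stepDn gLev1 a (f' (stepUp gLev1 a b))) =
          (tv gLev3 c (fE (pt 2306)) : Fin 4060) := by
        rw [ey, ← d2, Perm.inv_eq_iff_eq.2 rfl]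
      rw [et, u3, fE, el_val hfC, pt_val (by omega), hws, Nat.beq_refl] at h3
      exact Bool.noConfusion h3
    · rw [hget] at h3
      exact h3
  have hin : inSols k' = true := by
    simp only [candGood, forceNat_eq, Bool.or_eq_true, Bool.not_eq_true'] at hgood
    rcases hgood with (h1 | h1) | h1
    · rw [baseEq_of_eq hcard (g := h * fE) (f := fun x => ev k' (ev fC x))
        (f' := fun x => f' (ev k' x)) (fun x => by
          rw [Perm.mul_apply, hek', el_val hk', fE, el_val hfC]) (fun x => by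
          rw [hrel, Perm.mul_apply, hval, hek', el_val hk'])] at h1
      exact Bool.noConfusion h1
    · exfalso
      obtain ⟨j, hj⟩ := (mem_powers_iff_mem_zpowers (x := fE)).2 hh2
      simp only at hj
      rw [← pow_mod_orderOf, orderOf_fE hcard] at hj
      have h4 : j % 4 < 4 := Nat.mod_lt _ (by norm_num)
      have key : baseEq (fun x => ev k' (ev k' x)) (iterPt (ev fC) (j % 4)) = true :=
        baseEq_of_eq hcard (g := h ^ 2) (fun x => by
          rw [sq, Perm.mul_apply, hek', el_val hk', el_val hk']) (fun x => by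
          rw [← hj]; exact (iterPt_el hfC _ x).symm)
      simp only [candGood.anyFrom4, Bool.or_eq_false_iff] at h1
      obtain ⟨⟨⟨g0, g1⟩, g2⟩, g3⟩ := h1
      interval_cases hj4 : j % 4 <;> simp_all
    · exact h1
  simp only [inSols, Bool.or_eq_true, List.any_eq_true] at hin
  rcases hin with (⟨e, he, hek2⟩ | ⟨e, he, hek2⟩) | ⟨e, he, hek2⟩ <;>
    have hek3 : e.1 = k' := Nat.eq_of_beq_eq_true hek2
  · -- a power of the element of order four
    exfalso
    have h1 := List.all_eq_true.1 solsF_ok e he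
    rw [Bool.and_eq_true, hek3] at h1
    refine hhf (Subgroup.mem_zpowers_iff.2 ⟨(e.2 : ℤ), ?_⟩)
    rw [zpow_natCast, hek']
    exact (eq_of_baseEq hcard (el_spec hk').1 (Tg.pow_mem fE_mem e.2) (el_val hk')
      (fun x => (iterPt_el hfC e.2 x).symm) h1.2).symm
  · -- a fixed point
    have h1 := List.all_eq_true.1 solsFix_ok e he
    simp only [Bool.and_eq_true, Nat.blt_eq, hek3] at h1
    obtain ⟨⟨-, hi3⟩, hev⟩ := h1
    set ci := getN fixT e.2 with hcidef
    have hci' : ci ∈ fixT := getN_mem _ (by simpa [fixT] using hi3)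
    have hci3 : ci = 358 ∨ ci = 604 ∨ ci = 1666 := by simpa [fixT] using hci'
    set S := K ⊓ MulAction.stabilizer (Perm (Fin 4060)) (pt ci : Fin 4060) with hS
    have hhS : h ∈ S := ⟨hhK, by
      show h (pt ci) = pt ci
      rw [hek']; exact el_fix hk' (by omega) hev⟩
    rcases le_of_normalizer_le Tt M0 S K hc (card_Tt hcard) hM0 hc0
      (Subgroup.zpowers_le.2 htM) (fun g hg => ⟨hM0K hg, M0_fix hci' g hg⟩) inf_le_left with e1 | e1
    · exact absurd (e1 ▸ hhS) hhM
    · refine ⟨pt ci, fun e2 => ?_, fun hB => ?_, fun g hg => (e1.symm ▸ hg : g ∈ S).2⟩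
      · have := congrArg Fin.val e2
        rw [pt_val (by omega)] at this
        simp at this
        omega
      · rw [IsB, pt_val (by omega)] at hB
        obtain ⟨-, -, -, n1, n2, n3, -⟩ := special_spec
        rcases hci3 with e2 | e2 | e2 <;> rw [e2] at hB
        · rw [n1] at hB; exact Bool.noConfusion hB
        · rw [n2] at hB; exact Bool.noConfusion hB
        · rw [n3] at hB; exact Bool.noConfusion hB
  · -- too many points
    exfalso
    have h1 := List.all_eq_true.1 solsOrb_ok e he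
    simp only [orbOk, Bool.and_eq_true] at h1
    obtain ⟨⟨hok, h0⟩, hall⟩ := h1
    rw [hek3] at hall
    have hgens : ∀ g, g < 3 → el (getN [tC, fC, k'] g) ∈ K ∧ codeOk (getN [tC, fC, k'] g) = true := by
      intro g hg
      interval_cases g
      · exact ⟨ht, special_spec.1⟩
      · exact ⟨hM0K hfM, hfC⟩
      · exact ⟨show el k' ∈ K from hek' ▸ hhK, hk'⟩
    have key : ∀ n, n < 301 → pim 12 e.2.1 n < 4060 ∧ pim 9 e.2.2.2 (pim 12 e.2.1 n) = n + 1 ∧
        (pt (pim 12 e.2.1 n) : Fin 4060) ∈ MulAction.orbit K (pt 358 : Fin 4060) := by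
      intro n
      induction n using Nat.strong_induction_on with
      | _ n ih =>
        intro hn
        have h2 := allFrom_spec hall n (Nat.zero_le _) (by omega)
        simp only [forceNat_eq, Bool.and_eq_true, Bool.or_eq_true, Nat.blt_eq] at h2
        obtain ⟨⟨ho, hpos⟩, hpar⟩ := h2
        refine ⟨ho, Nat.eq_of_beq_eq_true hpos, ?_⟩
        rcases hpar with hz | ⟨⟨hg, hp⟩, hev⟩
        · rw [Nat.eq_of_beq_eq_true hz, Nat.eq_of_beq_eq_true h0]
          exact MulAction.mem_orbit_self _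
        · obtain ⟨hgK, hgok⟩ := hgens _ hg
          obtain ⟨hplt, -, ⟨⟨u, hu⟩, hue⟩⟩ := ih _ hp (by omega)
          refine ⟨⟨el (getN [tC, fC, k'] (bitField (pim 12 e.2.2.1 n) 9 3)) * u, K.mul_mem hgK hu⟩, ?_⟩
          show (el _ * u) (pt 358) = _
          rw [Perm.mul_apply, show u (pt 358) = _ from hue, el_pt hgok hplt,
            Nat.eq_of_beq_eq_true hev]
    let φ : Fin 301 → MulAction.orbit K (pt 358 : Fin 4060) := fun n => ⟨_, (key n n.2).2.2⟩
    have hinj : Function.Injective φ := by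
      intro m n hmn
      have e1 := congrArg (fun z : MulAction.orbit K (pt 358 : Fin 4060) => ((z.1 : Fin 4060) : ℕ)) hmn
      simp only [φ, pt_val (key m m.2).1, pt_val (key n n.2).1] at e1
      have := (key m m.2).2.1
      rw [e1, (key n n.2).2.1] at this
      exact Fin.ext (by omega)
    have h301 : 301 ≤ Nat.card (MulAction.orbit K (pt 358 : Fin 4060)) := by
      rw [← Nat.card_fin 301]
      exact Nat.card_le_card_of_injective φ hinj
    have h2 : Nat.card K = Nat.card (MulAction.orbit K (pt 358 : Fin 4060)) *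
        Nat.card (K ⊓ MulAction.stabilizer (Perm (Fin 4060)) (pt 358 : Fin 4060) :
          Subgroup (Perm (Fin 4060))) := Ctx.card_orbit_mul (D := ctxG) K (pt 358 : Fin 4060)
    rw [hc] at h2
    have h52 : 52 ≤ Nat.card (K ⊓ MulAction.stabilizer (Perm (Fin 4060)) (pt 358 : Fin 4060) :
        Subgroup (Perm (Fin 4060))) := by
      rw [← hc0]
      exact Nat.le_of_dvd Nat.card_pos (Subgroup.card_dvd_of_le
        (fun g hg => ⟨hM0K hg, M0_fix (by simp [fixT]) g hg⟩))
    have := Nat.mul_le_mul h301 h52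
    rw [← h2] at this
    omega

theorem fixes_of_card (K : Subgroup (Perm (Fin 4060))) (hK : K ≤ Tg) (hc : Nat.card K = 15600) :
    ∃ x : Fin 4060, x ≠ 0 ∧ ¬ IsB x ∧ ∀ g ∈ K, g x = x := by
  classical
  haveI : Fact (Nat.Prime 13) := ⟨by norm_num⟩
  obtain ⟨u, hu⟩ := exists_prime_orderOf_dvd_card' (G := K) 13 (by rw [hc]; norm_num)
  have hfac : (Nat.card Tg).factorization 13 = 1 := by
    rw [card_Tg hcard, show (35942400 : ℕ) = 13 ^ 1 * 2764800 from rfl,
      Nat.factorization_mul (by norm_num) (by norm_num), Nat.Prime.factorization_pow (by norm_num)]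
    simp [Nat.factorization_eq_zero_of_not_dvd (show ¬ 13 ∣ 2764800 by norm_num)]
  let u' : Tg := ⟨(u : Perm (Fin 4060)), hK u.2⟩
  have hu' : orderOf u' = 13 := by
    rw [← Subgroup.orderOf_coe u']
    exact (Subgroup.orderOf_coe u).trans hu
  let P : Sylow 13 Tg := Sylow.ofCard (Subgroup.zpowers (⟨tE, tE_mem⟩ : Tg)) (by
    rw [Nat.card_zpowers, Subgroup.orderOf_mk, orderOf_tE hcard, hfac, pow_one])
  let Q : Sylow 13 Tg := Sylow.ofCard (Subgroup.zpowers u') (by
    rw [Nat.card_zpowers, hu', hfac, pow_one])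
  obtain ⟨g, hg⟩ := MulAction.exists_smul_eq Tg Q P
  have hmem : (⟨tE, tE_mem⟩ : Tg) ∈ ((g • Q : Sylow 13 Tg) : Subgroup Tg) := by
    rw [hg]; exact Subgroup.mem_zpowers _
  rw [Sylow.coe_subgroup_smul, Subgroup.mem_pointwise_smul_iff_inv_smul_mem] at hmem
  have hK' : Nat.card (K.map (MulAut.conj (g : Perm (Fin 4060))).toMonoidHom) = 15600 := by
    rw [← Nat.card_congr (K.equivMapOfInjective (MulAut.conj (g : Perm (Fin 4060))).toMonoidHom
      (MulAut.conj (g : Perm (Fin 4060))).injective).toEquiv, hc]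
  have hK'le : K.map (MulAut.conj (g : Perm (Fin 4060))).toMonoidHom ≤ Tg := by
    rintro _ ⟨y, hy, rfl⟩
    exact mul_mem (mul_mem g.2 (hK hy)) (inv_mem g.2)
  have ht : tE ∈ K.map (MulAut.conj (g : Perm (Fin 4060))).toMonoidHom := by
    obtain ⟨n, hn⟩ := hmem
    refine ⟨(u : Perm (Fin 4060)) ^ n, zpow_mem u.2 n, ?_⟩
    have e := congrArg Subtype.val hn
    simp only [Subgroup.coe_zpow, MulAut.smul_def, MulAut.conj_inv_apply, Subgroup.coe_mul,
      Subgroup.coe_inv] at e
    rw [MulEquiv.coe_toMonoidHom, MulAut.conj_apply, show (u : Perm (Fin 4060)) ^ n = _ from e]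
    group
  obtain ⟨x, hx0, hxB, hfix⟩ := fixes_of_tE hcard _ hK'le hK' ht
  refine ⟨(g : Perm (Fin 4060))⁻¹ x, fun e => ?_, fun hB => ?_, fun y hy => ?_⟩
  · exact hx0 ((Perm.inv_eq_iff_eq.1 e).trans (mem_Tg.1 g.2).2)
  · exact hxB ((isB_apply_iff hcard (inv_mem g.2)).1 hB)
  · have := hfix _ ⟨y, hy, rfl⟩
    rw [MulEquiv.coe_toMonoidHom, MulAut.conj_apply, Perm.mul_apply, Perm.mul_apply] at this
    exact Perm.eq_inv_iff_eq.2 this

end

end Cfsg.Agent.H12.RuRec
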