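import Cfsg.Agent.H12.RuRec.Base

/-!
A subgroup of order 20480 of the stabiliser of the first point fixes a point of the suborbit of
1755 points.
-/

set_option autoImplicit false
set_option maxRecDepth 100000
set_option linter.unusedSectionVars false

open Equiv Cfsg.Agent.H16 Cfsg.Agent.H36 Cfsg.Agent.H36.AutEngine Cfsg.Agent.H56.RuTits

namespace Cfsg.Agent.H12.RuRec

noncomputable section

/-- The stabiliser of the first two points. -/
def Pg : Subgroup (Perm (Fin 4060)) := Tg ⊓ MulAction.stabilizer (Perm (Fin 4060)) (pt 2305)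

theorem mem_Pg {g : Perm (Fin 4060)} : g ∈ Pg ↔ g ∈ Tg ∧ g (pt 2305) = pt 2305 := Iff.rfl

theorem el_mem_Pg {k : ℕ} (hk : codeOk k = true) (hA : Nat.beq (codeA k) 2305 = true) : el k ∈ Pg :=
  mem_Pg.2 ⟨(el_spec hk).1, by rw [(el_spec hk).2.2.2, Nat.eq_of_beq_eq_true hA]⟩

/-- The orbit of a subgroup fixing the first point. -/
theorem card_eq_orbit_mul (H : Subgroup (Perm (Fin 4060))) (b : Fin 4060) :
    Nat.card H = Set.ncard {x | ∃ g ∈ H, g b = x} *
      Nat.card (H ⊓ MulAction.stabilizer (Perm (Fin 4060)) b : Subgroup (Perm (Fin 4060))) := by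
  refine (Ctx.card_orbit_mul (D := ctxG) H b).trans ?_
  rw [Nat.card_coe_set_eq]
  congr 2
  ext x
  exact ⟨fun ⟨⟨g, hg⟩, e⟩ => ⟨g, hg, e⟩, fun ⟨g, hg, e⟩ => ⟨⟨g, hg⟩, e⟩⟩

theorem isB_base : IsB (pt 2305) := by
  rw [isB_iff, pt_val (by omega)]
  exact code_root.2.2

variable (hcard : Nat.card ruPerm = 145926144000)

include hcard

theorem ncard_isB : {x : Fin 4060 | IsB x}.ncard = 1755 := by
  refine (ncard_of_countFrom inB {x | IsB x} fun x => Iff.rfl).trans ?_
  apply Nat.eq_of_beq_eq_true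
  decide +kernel

theorem card_Pg : Nat.card Pg = 20480 := by
  have h := card_eq_orbit_mul Tg (pt 2305)
  have hset : {x | ∃ g ∈ Tg, g (pt 2305) = x} = {x : Fin 4060 | IsB x} :=
    Set.ext fun x => ⟨fun ⟨g, hg, e⟩ => e ▸ isB_apply hcard hg isB_base, fun hx => exists_moveB hcard hx⟩
  rw [hset, ncard_isB hcard, card_Tg hcard] at h
  change 35942400 = 1755 * Nat.card Pg at h
  omega

omit hcard in
theorem forS_gens : ∀ k ∈ genS, codeOk k = true ∧ el k ∈ Pg ∧
    (∀ y ∈ pairY, ev k y ∈ pairY) := by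
  intro k hk
  have h1 := forS_ok
  simp only [forestOk, Bool.and_eq_true, List.all_eq_true] at h1
  have h2 := List.all_eq_true.1 genS_fix k hk
  simp only [Bool.and_eq_true] at h2
  refine ⟨h1.1 k hk, el_mem_Pg (h1.1 k hk) h2.1.1, fun y hy => ?_⟩
  simp only [pairY, List.mem_cons, List.not_mem_nil, or_false] at hy
  rcases hy with rfl | rfl
  · exact memB_iff.1 h2.1.2
  · exact memB_iff.1 h2.2

/-- A Sylow 2-subgroup of the stabiliser of the first point. -/
def Sg : Subgroup (Perm (Fin 4060)) := Subgroup.closure ((fun k => el k) '' {k | k ∈ genS})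

omit hcard in
theorem Sg_le : Sg ≤ Pg :=
  (Subgroup.closure_le _).2 (by rintro _ ⟨k, hk, rfl⟩; exact (forS_gens k hk).2.1)

omit hcard in
theorem el_mem_Sg {k : ℕ} (hk : k ∈ genS) : el k ∈ Sg := Subgroup.subset_closure ⟨k, hk, rfl⟩

omit hcard in
theorem card_Sg_ge : 4096 ≤ Nat.card Sg := by
  classical
  set k := getN genS 0 with hk0
  have hmem : k ∈ genS := getN_mem _ (by decide)
  have hok : codeOk k = true := (forS_gens k hmem).1
  have h := genS_first
  simp only [Bool.and_eq_true] at h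
  obtain ⟨hf, hd⟩ := h
  have hfix : el k (pt 2306) = pt 2306 := el_fix hok (by omega) hf
  have hR : ({x | ∃ g ∈ Sg, g (pt 2306) = x} : Set (Fin 4060)).ncard ≥ 1024 := by
    have hsub : {x : Fin 4060 | fRoot forS x = 2306} ⊆ {x | ∃ g ∈ Sg, g (pt 2306) = x} := fun x hx => by
      obtain ⟨-, -, g, hg, e⟩ := forest_mem forS_ok (fun k hk => el_mem_Sg hk) x
      rw [show fRoot forS x = 2306 from hx] at e
      exact ⟨g, hg, e⟩
    refine le_trans (le_of_eq ?_) (Set.ncard_le_ncard hsub)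
    rw [treeSize_eq]
    exact (Nat.eq_of_beq_eq_true sizeS_ok).symm
  set H1 : Subgroup (Perm (Fin 4060)) := Sg ⊓ MulAction.stabilizer (Perm (Fin 4060)) (pt 2306)
  have hpow : ∀ i : ℕ, el k ^ i ∈ H1 := fun i => H1.pow_mem (show el k ∈ H1 from ⟨el_mem_Sg hmem, hfix⟩) i
  have h4 : 4 ≤ Nat.card H1 := by
    let f : Fin 4 → H1 := fun i => ⟨el k ^ (i : ℕ), hpow i⟩
    have hf' : Function.Injective f := fun i j e => by
      by_contra hij
      have hd' := allFrom_spec (allFrom_spec hd i (Nat.zero_le _) (by omega)) j (Nat.zero_le _) (by omega)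
      have e' : ((el k ^ (i : ℕ)) (pt 2308) : Fin 4060) = (el k ^ (j : ℕ)) (pt 2308) := by
        rw [show el k ^ (i : ℕ) = el k ^ (j : ℕ) from congrArg Subtype.val e]
      have e2 := iterPt_el hok (i : ℕ) (pt 2308)
      have e3 := iterPt_el hok (j : ℕ) (pt 2308)
      rw [pt_val (by omega : 2308 < 4060)] at e2 e3
      rw [← hk0, e2, e3, e'] at hd'
      simp [Fin.val_inj, hij] at hd'
    have := Nat.card_le_card_of_injective f hf'
    simpa using this
  rw [card_eq_orbit_mul Sg (pt 2306)]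
  exact le_trans (by norm_num) (Nat.mul_le_mul hR h4)

omit hcard in
theorem pair_image : ∀ g ∈ Sg, g '' ({pt 3330, pt 3843} : Set (Fin 4060)) = {pt 3330, pt 3843} := by
  intro g hg
  refine Subgroup.closure_induction
    (p := fun (g : Perm (Fin 4060)) _ => ⇑g '' ({pt 3330, pt 3843} : Set (Fin 4060)) = {pt 3330, pt 3843})
    ?_ ?_ ?_ ?_ hg
  · rintro _ ⟨k, hk, rfl⟩
    obtain ⟨hok, -, hp⟩ := forS_gens k hk
    refine Set.eq_of_subset_of_ncard_le ?_ (by rw [Set.ncard_image_of_injective _ (el k).injective])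
    rintro _ ⟨x, hx, rfl⟩
    have key : ∀ y ∈ pairY, el k (pt y) ∈ ({pt 3330, pt 3843} : Set (Fin 4060)) := fun y hy => by
      have hy' : y < 4060 := by simp [pairY] at hy; omega
      rw [el_pt hok hy']
      have := hp y hy
      simp only [pairY, List.mem_cons, List.not_mem_nil, or_false] at this
      rcases this with e | e <;> simp [e]
    rcases hx with rfl | rfl
    · exact key _ (by simp [pairY])
    · exact key _ (by simp [pairY])
  · simp
  · intro a b _ _ ha hb
    rw [Perm.coe_mul, Set.image_comp, hb, ha]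
  · intro a _ ha
    conv_lhs => rw [← ha]
    rw [← Set.image_comp, ← Perm.coe_mul, inv_mul_cancel, Perm.coe_one, Set.image_id]

omit hcard in
theorem pairCodes_inj : ∃ f : Fin 10 → Fin 4060, Function.Injective f ∧ ∀ i, ∃ g ∈ Pg, g (pt 3330) = f i := by
  have h := pairCodes_ok
  simp only [Bool.and_eq_true, List.all_eq_true] at h
  obtain ⟨⟨hl, hk⟩, hd⟩ := h
  have hl' : pairCodes.length = 10 := Nat.eq_of_beq_eq_true hl
  have hmem : ∀ i : Fin 10, getN pairCodes i ∈ pairCodes := fun i => getN_mem _ (by omega)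
  refine ⟨fun i => el (getN pairCodes i) (pt 3330), fun i j e => ?_, fun i =>
    ⟨_, el_mem_Pg (hk _ (hmem i)).1 (hk _ (hmem i)).2, rfl⟩⟩
  by_contra hij
  have hd' := allFrom_spec (allFrom_spec hd i (Nat.zero_le _) (by omega)) j (Nat.zero_le _) (by omega)
  have e2 := congrArg Fin.val e
  rw [el_val (hk _ (hmem i)).1, el_val (hk _ (hmem j)).1, pt_val (by omega : 3330 < 4060)] at e2
  simp [Fin.val_inj, hij, e2] at hd'

theorem card_Sg : Nat.card Sg = 4096 := by
  classical
  refine le_antisymm ?_ card_Sg_ge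
  have h := card_eq_orbit_mul Sg (pt 3330)
  have h1 : ({x | ∃ g ∈ Sg, g (pt 3330) = x} : Set (Fin 4060)).ncard ≤ 2 := by
    refine le_trans (Set.ncard_le_ncard (t := {pt 3330, pt 3843}) ?_) ?_
    · rintro _ ⟨g, hg, rfl⟩
      rw [← pair_image g hg]
      exact Set.mem_image_of_mem _ (by simp)
    · refine le_trans (Set.ncard_insert_le _ _) ?_
      simp
  have hP := card_eq_orbit_mul Pg (pt 3330)
  have h2 : 10 ≤ ({x | ∃ g ∈ Pg, g (pt 3330) = x} : Set (Fin 4060)).ncard := by
    obtain ⟨f, hf, hf'⟩ := pairCodes_inj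
    have := Set.ncard_le_ncard (s := Set.range f) (t := {x | ∃ g ∈ Pg, g (pt 3330) = x})
      (by rintro _ ⟨i, rfl⟩; exact hf' i)
    rwa [Set.ncard_range_of_injective hf, Nat.card_fin] at this
  have h3 : Nat.card (Sg ⊓ MulAction.stabilizer (Perm (Fin 4060)) (pt 3330) : Subgroup (Perm (Fin 4060))) ≤
      Nat.card (Pg ⊓ MulAction.stabilizer (Perm (Fin 4060)) (pt 3330) : Subgroup (Perm (Fin 4060))) :=
    Subgroup.card_le_of_le (inf_le_inf_right _ Sg_le)
  rw [card_Pg hcard] at hP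
  have h4 : Nat.card (Pg ⊓ MulAction.stabilizer (Perm (Fin 4060)) (pt 3330) : Subgroup (Perm (Fin 4060))) ≤ 2048 := by
    have := Nat.mul_le_mul_right (Nat.card (Pg ⊓ MulAction.stabilizer (Perm (Fin 4060)) (pt 3330) : Subgroup (Perm (Fin 4060)))) h2
    omega
  calc Nat.card Sg = _ := h
    _ ≤ 2 * 2048 := Nat.mul_le_mul h1 (le_trans h3 h4)

omit hcard in
theorem big_orbit {O : Set (Fin 4060)} (hO : ∀ g ∈ Sg, ∀ x ∈ O, g x ∈ O) {x : Fin 4060} (hx : x ∈ O)
    (hB : IsB x) (h1 : x ≠ pt 2305) (h2 : x ≠ pt 3330) (h3 : x ≠ pt 3843) :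
    5 ≤ (O \ {pt 2305}).ncard := by
  classical
  have h := bigS_ok
  simp only [Bool.and_eq_true, List.all_eq_true] at h
  obtain ⟨hl, hcov⟩ := h
  have hc := all4060_spec hcov x
  have n1 : Nat.beq (x : ℕ) 2305 = false := by
    simp only [Bool.eq_false_iff, ne_eq, Nat.beq_eq]
    exact fun e => h1 (by rw [← e, pt_self])
  have n2 : memB pairY (x : ℕ) = false := by
    simp only [Bool.eq_false_iff, ne_eq, memB_iff, pairY, List.mem_cons, List.not_mem_nil, or_false]
    rintro (e | e)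
    · exact h2 (by rw [← e, pt_self])
    · exact h3 (by rw [← e, pt_self])
  simp only [forceNat_eq, show inB (x : ℕ) = true from hB, n1, n2, Bool.not_true, Bool.false_or,
    List.any_eq_true] at hc
  obtain ⟨l, hlm, hroot⟩ := hc
  obtain ⟨hlen, hl5⟩ := hl l hlm
  have hroot' := Nat.eq_of_beq_eq_true hroot
  have hi : ∀ i : Fin 5, getN l i < 4060 ∧ fRoot forS (getN l i) = fRoot forS x ∧
      ∀ j : Fin 5, i ≠ j → getN l i ≠ getN l j := by
    intro i
    have := allFrom_spec hl5 i (Nat.zero_le _) (by omega)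
    simp only [Bool.and_eq_true, Nat.blt_eq] at this
    refine ⟨this.1.1, (Nat.eq_of_beq_eq_true this.1.2).trans hroot', fun j hij e => ?_⟩
    have := allFrom_spec this.2 j (Nat.zero_le _) (by omega)
    simp [Fin.val_inj, hij, e] at this
  have hinv := forest_invariant forS_ok (H := Sg) (fun k hk => el_mem_Sg hk) (R := O) hO
  have hbig : ∀ i : Fin 5, pt (getN l i) ∈ O \ {pt 2305} := by
    intro i
    refine ⟨?_, ?_⟩
    · rw [hinv, pt_val (hi i).1, (hi i).2.1]
      exact (hinv x).1 hx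
    · intro e
      have e2 : fRoot forS x = fRoot forS 2305 := by
        rw [← (hi i).2.1, ← pt_val (hi i).1, show pt (getN l i) = pt 2305 from e, pt_val (by omega : 2305 < 4060)]
      have hx5 : x = pt 2305 := by
        obtain ⟨-, -, g, hg, eg⟩ := forest_mem forS_ok (fun k hk => el_mem_Sg hk) x
        rw [e2, show fRoot forS 2305 = 2305 by apply Nat.eq_of_beq_eq_true; decide +kernel] at eg
        rw [← eg]
        exact (Sg_le hg).2
      exact h1 hx5
  have := Set.ncard_le_ncard (s := Set.range fun i : Fin 5 => pt (getN l i)) (t := O \ {pt 2305})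
    (by rintro _ ⟨i, rfl⟩; exact hbig i)
  rwa [Set.ncard_range_of_injective (fun i j e => by
    by_contra hij
    exact (hi i).2.2 j hij (by rw [← pt_val (hi i).1, e, pt_val (hi j).1])), Nat.card_fin] at this

/-- A subgroup of index 1755 fixes a point of the suborbit of 1755 points. -/
theorem fixes_of_card_P (X : Subgroup (Perm (Fin 4060))) (hX : X ≤ Tg) (hc : Nat.card X = 20480) :
    ∃ x : Fin 4060, IsB x ∧ ∀ g ∈ X, g x = x := by
  classical
  have : Fact (Nat.Prime 2) := ⟨Nat.prime_two⟩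
  have hS : Sg ≤ Tg := fun g hg => (Sg_le hg).1
  obtain ⟨R, hR⟩ := Sylow.exists_subgroup_card_pow_prime (G := ↥X) 2 (n := 12) (by rw [hc]; norm_num)
  set R' : Subgroup (Perm (Fin 4060)) := R.map X.subtype
  have hR' : Nat.card R' = 2 ^ 12 := by rw [Subgroup.card_map_of_injective X.subtype_injective, hR]
  have hR'X : R' ≤ X := Subgroup.map_subtype_le R
  have hfac : (Nat.card Tg).factorization 2 = 12 := by
    rw [card_Tg hcard, show 35942400 = 2 ^ 12 * 8775 by norm_num, Nat.factorization_mul (by norm_num) (by norm_num),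
      Finsupp.add_apply, Nat.Prime.factorization_pow Nat.prime_two, Finsupp.single_eq_same,
      Nat.factorization_eq_zero_of_not_dvd (by norm_num)]
  let A : Sylow 2 ↥Tg := Sylow.ofCard (R'.subgroupOf Tg) (by
    rw [Nat.card_congr (Subgroup.subgroupOfEquivOfLe (hR'X.trans hX)).toEquiv, hR', hfac])
  let B : Sylow 2 ↥Tg := Sylow.ofCard (Sg.subgroupOf Tg) (by
    rw [Nat.card_congr (Subgroup.subgroupOfEquivOfLe hS).toEquiv, card_Sg hcard, hfac]; norm_num)
  obtain ⟨t, ht⟩ := MulAction.exists_smul_eq ↥Tg A B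
  set u : Perm (Fin 4060) := t.1 with hu
  set X' := X.map (MulAut.conj u).toMonoidHom with hX'
  have hSX : Sg ≤ X' := by
    intro g hg
    have : (⟨g, hS hg⟩ : ↥Tg) ∈ (B : Subgroup ↥Tg) := hg
    rw [← ht, Sylow.coe_subgroup_smul, Subgroup.mem_pointwise_smul_iff_inv_smul_mem] at this
    refine ⟨u⁻¹ * g * u, hR'X ?_, by simp [MulAut.conj_apply, mul_assoc]⟩
    simpa [A, MulAut.smul_def, MulAut.conj_apply, Subgroup.mem_subgroupOf] using this
  have hX'T : X' ≤ Tg := by
    rintro _ ⟨g, hg, rfl⟩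
    exact Tg.mul_mem (Tg.mul_mem t.2 (hX hg)) (Tg.inv_mem t.2)
  have hX'c : Nat.card X' = 20480 := by
    rw [hX', Subgroup.card_map_of_injective (MulAut.conj u).injective, hc]
  set O : Set (Fin 4060) := {x | ∃ g ∈ X', g (pt 2305) = x} with hO
  have hdecomp := card_eq_orbit_mul X' (pt 2305)
  rw [← hO] at hdecomp
  have hSdvd : 4096 ∣ Nat.card (X' ⊓ MulAction.stabilizer (Perm (Fin 4060)) (pt 2305) : Subgroup (Perm (Fin 4060))) :=
    card_Sg hcard ▸ Subgroup.card_dvd_of_le (le_inf hSX fun g hg => (Sg_le hg).2)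
  obtain ⟨m, hm⟩ := hSdvd
  rw [hm, hX'c] at hdecomp
  have h5 : O.ncard * m = 5 := by
    have : 4096 * (O.ncard * m) = 4096 * 5 := by rw [show 4096 * 5 = 20480 by norm_num, hdecomp]; ring
    omega
  have hbase : pt 2305 ∈ O := ⟨1, X'.one_mem, rfl⟩
  have h1 : O.ncard = 1 := by
    rcases (Nat.dvd_prime (by norm_num : Nat.Prime 5)).1 ⟨m, h5.symm⟩ with h | h
    · exact h
    exfalso
    have hinv : ∀ g ∈ Sg, ∀ x ∈ O, g x ∈ O := by
      rintro g hg _ ⟨g', hg', rfl⟩
      exact ⟨g * g', X'.mul_mem (hSX hg) hg', rfl⟩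
    have h4 : (O \ {pt 2305}).ncard = 4 := by rw [Set.ncard_sdiff_singleton_of_mem hbase, h]
    have hsub : O \ {pt 2305} ⊆ {pt 3330, pt 3843} := by
      rintro x ⟨hx, hne⟩
      by_contra hnot
      simp only [Set.mem_insert_iff, Set.mem_singleton_iff, not_or] at hnot
      obtain ⟨g, hg, e⟩ := hx
      have := big_orbit hinv ⟨g, hg, e⟩ (e ▸ isB_apply hcard (hX'T hg) isB_base) hne hnot.1 hnot.2
      omega
    have := le_trans (Set.ncard_le_ncard hsub) (Set.ncard_insert_le _ _)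
    rw [h4, Set.ncard_singleton] at this
    omega
  obtain ⟨x₀, hx₀⟩ := Set.ncard_eq_one.1 h1
  have hall : ∀ g ∈ X', g (pt 2305) = pt 2305 := fun g hg => by
    have a : g (pt 2305) ∈ O := ⟨g, hg, rfl⟩
    rw [hx₀, Set.mem_singleton_iff] at a
    rw [hx₀, Set.mem_singleton_iff] at hbase
    exact a.trans hbase.symm
  refine ⟨u⁻¹ (pt 2305), isB_apply hcard (Tg.inv_mem t.2) isB_base, fun g hg => ?_⟩
  have := hall (u * g * u⁻¹) ⟨g, hg, rfl⟩
  rw [Perm.mul_apply, Perm.mul_apply] at this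
  exact (Perm.eq_inv_iff_eq).2 this

end

end Cfsg.Agent.H12.RuRec
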