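import Cfsg.Agent.H12.RuRec.Graph

/-!
An automorphism of the graph fixing two adjacent points and normalising their stabiliser lies in it.
-/

set_option autoImplicit false
set_option maxRecDepth 100000
set_option linter.unusedSectionVars false

open Equiv Cfsg.Agent.H16 Cfsg.Agent.H36 Cfsg.Agent.H36.AutEngine Cfsg.Agent.H56.RuTits

namespace Cfsg.Agent.H12.RuRec

noncomputable section

/-- The stabiliser of three points. -/
def Qg : Subgroup (Perm (Fin 4060)) := Pg ⊓ MulAction.stabilizer (Perm (Fin 4060)) (pt 2306)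

/-- The stored row of a point. -/
noncomputable def rowAt (z : ℕ) : ℕ :=
  List.rec (motive := fun _ => ℕ) 0 (fun e _ ih => bif Nat.beq e.1 z then e.2 else ih) rowList

/-- All points with stored rows that occur in the sets. -/
def usedPts : List ℕ := ptsW5.flatten

theorem rowsW_eq : rowsW1 = ptsW1.map (fun W => W.map rowAt) ∧ rowsW2 = ptsW2.map (fun W => W.map rowAt) ∧
    rowsW3 = ptsW3.map (fun W => W.map rowAt) ∧ rowsW4 = ptsW4.map (fun W => W.map rowAt) ∧
    rowsW5 = ptsW5.map (fun W => W.map rowAt) := by decide +kernel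

theorem sets_shape : ptsW1 = [[0], [2305], [2306], [x0], extQ, fourS] ∧ ptsW3 = ptsW2 ++ [[y5]] ∧
    ptsW4 = ptsW3 ++ single3.map (fun e => [e.2]) ∧ ptsW5 = ptsW4 ++ single4.map (fun e => [e.2]) := by
  decide +kernel

theorem rowAt_mem : ∀ z ∈ usedPts, (z, rowAt z) ∈ rowList := by decide +kernel

theorem pts_nodup : (∀ W ∈ ptsW5, W.Nodup ∧ ∀ z ∈ W, z < 4060) ∧ orbY.Nodup ∧ x0 < 4060 ∧ y5 < 4060 ∧
    (∀ z ∈ orbY, z < 4060) ∧ (∀ W ∈ ptsW2, W ∈ ptsW5) ∧ (∀ W ∈ ptsW3, W ∈ ptsW5) ∧ (∀ W ∈ ptsW4, W ∈ ptsW5) := by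
  decide +kernel

theorem el_congr {k k' : ℕ} (hA : codeA k = codeA k') (hB : codeB k = codeB k') (hC : codeC k = codeC k') :
    el k = el k' := by
  simp only [el, hA, hB, hC]

theorem tv_root : tv gLev1 2305 = 1 := by
  obtain ⟨-, -, -, hu, -⟩ := step_spec levels_split.2.1 (t := 2305) (by omega) code_root.2.2
  refine Equiv.ext fun y => Fin.ext ?_
  rw [hu, stepUp, forceNat_eq, show Ctx.rank gLev1 2305 = 1 by apply Nat.eq_of_beq_eq_true; decide +kernel]
  rfl

theorem el_2306 {k : ℕ} (hk : codeOk k = true) (hA : codeA k = 2305) : el k (pt 2306) = pt (codeB k) := by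
  obtain ⟨-, ⟨b, rb⟩, c, rc⟩ := codeOk_spec hk
  obtain ⟨-, -, l2, l3⟩ := levels_split
  obtain ⟨-, b2, -, -, -⟩ := step_spec l2 b rb
  obtain ⟨-, -, f3, -, -⟩ := step_spec l3 c rc
  simp only [el, hA, tv_root, one_mul, Perm.mul_apply]
  rw [f3 (pt 2306) (by simp [pt_val]), b2 (pt 2306) (pt_val (by omega))]

theorem qCode_spec {c : ℕ} (hc : c ∈ cs20) :
    codeOk (qCode c) = true ∧ codeA (qCode c) = 2305 ∧ codeB (qCode c) = 2306 ∧ codeC (qCode c) = c := by
  obtain ⟨i, hi, rfl⟩ := List.getElem_of_mem hc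
  have h := cs20_ok
  simp only [Bool.and_eq_true] at h
  have hlen : cs20.length = 20 := Nat.eq_of_beq_eq_true h.2
  have h' := allFrom_spec h.1.2 i (Nat.zero_le _) (by omega)
  simp only [Bool.and_eq_true, Nat.blt_eq, Bool.not_eq_true', getN_eq_getD, List.getD_eq_getElem _ _ hi] at h'
  obtain ⟨⟨hlt, hr⟩, -⟩ := h'
  obtain ⟨e1, e2, e3⟩ := code_fields (a := 2305) (b := 2306) (by omega) (by omega) hlt
  have e : qCode cs20[i] = 2305 + 4096 * (2306 + 4096 * cs20[i]) := rfl
  rw [e]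
  refine ⟨?_, e1, e2, e3⟩
  simp only [codeOk, e1, e2, e3, Bool.and_eq_true, Nat.blt_eq, Bool.not_eq_true']
  exact ⟨⟨⟨⟨⟨by omega, by omega⟩, hlt⟩, by simpa [Bool.eq_false_iff] using code_root.2.2⟩,
    by simpa [Bool.eq_false_iff] using code_root.1⟩, hr⟩

theorem qCode_mem {c : ℕ} (hc : c ∈ cs20) : el (qCode c) ∈ Qg := by
  obtain ⟨hok, hA, hB, -⟩ := qCode_spec hc
  exact ⟨el_mem_Pg hok (by rw [hA]; rfl), by show el (qCode c) (pt 2306) = _; rw [el_2306 hok hA, hB]⟩

theorem sC_mem : codeOk sC = true ∧ el sC ∈ Qg ∧ codeOk qC = true ∧ el qC ∈ Qg := by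
  have h := special_ok
  have h2 := fixQ_ok
  simp only [Bool.and_eq_true] at h h2
  have hs : codeOk sC = true := h.1.1.1.1.1.2
  have hq : codeOk qC = true := h.1.1.1.1.2
  have hA : codeA sC = 2305 := Nat.eq_of_beq_eq_true h2.1.1.1.2
  have hA' : codeA qC = 2305 := Nat.eq_of_beq_eq_true h2.1.2
  refine ⟨hs, ⟨el_mem_Pg hs (by rw [hA]; rfl), ?_⟩, hq, el_mem_Pg hq (by rw [hA']; rfl), ?_⟩
  · show el sC (pt 2306) = _
    rw [el_2306 hs hA, Nat.eq_of_beq_eq_true h2.1.1.2]
  · show el qC (pt 2306) = _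
    rw [el_2306 hq hA', Nat.eq_of_beq_eq_true h2.2]

/-- A list of points is permuted. -/
def Stable (h : Perm (Fin 4060)) (W : List ℕ) : Prop := (W.map fun z => h (pt z)).Perm (W.map pt)

theorem stable_single {h : Perm (Fin 4060)} {z : ℕ} (hz : h (pt z) = pt z) : Stable h [z] := by
  simp [Stable, hz]

theorem stable_of_mapsTo {h : Perm (Fin 4060)} {W : List ℕ} (hn : W.Nodup) (hlt : ∀ z ∈ W, z < 4060)
    (hm : ∀ z ∈ W, ∃ z' ∈ W, h (pt z) = pt z') : Stable h W := by
  refine (List.subperm_of_subset ?_ ?_).perm_of_length_le (by simp)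
  · exact hn.map_on fun a ha b hb e => by rw [← pt_val (hlt a ha), h.injective e, pt_val (hlt b hb)]
  · intro y hy
    obtain ⟨z, hz, rfl⟩ := List.mem_map.1 hy
    obtain ⟨z', hz', e⟩ := hm z hz
    exact List.mem_map.2 ⟨z', hz', e.symm⟩

variable (hcard : Nat.card ruPerm = 145926144000)

include hcard

theorem mem_Qg {g : Perm (Fin 4060)} (hg : g ∈ Qg) : ∃ c ∈ cs20, g = el (qCode c) := by
  obtain ⟨k, hk, rfl⟩ := exists_code hcard hg.1.1
  obtain ⟨⟨a, -⟩, ⟨b, -⟩, c, rc⟩ := codeOk_spec hk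
  have hA : codeA k = 2305 := by
    have e : el k (pt 2305) = pt 2305 := hg.1.2
    rw [(el_spec hk).2.2.2] at e
    rw [← pt_val a, e, pt_val (by omega)]
  have hB : codeB k = 2306 := by
    have e : el k (pt 2306) = pt 2306 := hg.2
    rw [el_2306 hk hA] at e
    rw [← pt_val b, e, pt_val (by omega)]
  have h := cs20_ok
  simp only [Bool.and_eq_true] at h
  have hc := all4060_lt h.1.1 c
  simp only [show Nat.beq (Ctx.rank gLev3 (codeC k)) 0 = false by simpa [Bool.eq_false_iff] using rc,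
    Bool.false_or, memB_iff] at hc
  obtain ⟨-, e1, e2, e3⟩ := qCode_spec hc
  exact ⟨codeC k, hc, el_congr (hA.trans e1.symm) (hB.trans e2.symm) e3.symm⟩

/-- The points fixed by the stabiliser of three points. -/
theorem fixed_iff (x : Fin 4060) : (∀ g ∈ Qg, g x = x) ↔ (x : ℕ) ∈ fixQ := by
  obtain ⟨hs, hsm, hq, hqm⟩ := sC_mem
  have h := fixQ_ok
  simp only [Bool.and_eq_true, List.all_eq_true] at h
  obtain ⟨⟨⟨⟨⟨hall, hcs⟩, -⟩, -⟩, -⟩, -⟩ := h
  constructor
  · intro hx
    have h' := all4060_spec hall x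
    simp only [forceNat_eq, Bool.and_eq_true, sameB_iff, memB_iff] at h'
    refine h'.1.1.1 ⟨?_, ?_⟩
    · rw [Nat.beq_eq, ← el_val hs x, hx _ hsm]
    · rw [Nat.beq_eq, ← el_val hq x, hx _ hqm]
  · intro hx g hg
    obtain ⟨c, hc, rfl⟩ := mem_Qg hcard hg
    exact Fin.ext (by rw [el_val (qCode_spec hc).1, Nat.eq_of_beq_eq_true (hcs c hc x hx)])

theorem fixS_iff (x : Fin 4060) : el sC x = x ↔ (x : ℕ) ∈ fixQ ∨ (x : ℕ) ∈ fourS := by
  have hs := sC_mem.1
  have h := fixQ_ok
  simp only [Bool.and_eq_true] at h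
  have h' := all4060_spec h.1.1.1.1.1 x
  simp only [forceNat_eq, Bool.and_eq_true, sameB_iff, Bool.or_eq_true, memB_iff] at h'
  rw [← h'.1.2, Nat.beq_eq, ← el_val hs x, Fin.val_inj]

theorem ext_iff (x : Fin 4060) : (x : ℕ) ∈ extQ ↔ (x : ℕ) ∈ fixQ ∧ x ≠ 0 ∧ x ≠ pt 2305 ∧ x ≠ pt 2306 := by
  have h := fixQ_ok
  simp only [Bool.and_eq_true] at h
  have h' := all4060_spec h.1.1.1.1.1 x
  simp only [forceNat_eq, Bool.and_eq_true, sameB_iff, memB_iff, Bool.not_eq_true'] at h'
  rw [h'.2, show memB [0, 2305, 2306] (x : ℕ) = false ↔ ¬ ((x : ℕ) ∈ [0, 2305, 2306]) by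
    rw [← memB_iff, Bool.not_eq_true]]
  simp only [List.mem_cons, List.not_mem_nil, or_false, not_or, ne_eq, Fin.ext_iff, Fin.val_zero,
    pt_val (show (2305 : ℕ) < 4060 by omega), pt_val (show (2306 : ℕ) < 4060 by omega)]

/-- An automorphism fixing three points and normalising their stabiliser. -/
structure Norm (h : Perm (Fin 4060)) : Prop where
  /-- the first point -/
  f0 : h 0 = 0
  /-- the second point -/
  f1 : h (pt 2305) = pt 2305
  /-- the third point -/
  f2 : h (pt 2306) = pt 2306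
  /-- it preserves the graph -/
  adj : ∀ z y, Adj ruPerm (h z) (h y) ↔ Adj ruPerm z y
  /-- it normalises -/
  norm : ∀ g ∈ Qg, h * g * h⁻¹ ∈ Qg

omit hcard in
theorem Norm.mul_left {h q : Perm (Fin 4060)} (hh : Norm h) (hq : q ∈ Qg) : Norm (q * h) := by
  refine ⟨?_, ?_, ?_, fun z y => ?_, fun g hg => ?_⟩
  · rw [Perm.mul_apply, hh.f0]; exact hq.1.1.2
  · rw [Perm.mul_apply, hh.f1]; exact hq.1.2
  · rw [Perm.mul_apply, hh.f2]; exact hq.2
  · rw [Perm.mul_apply, Perm.mul_apply, good_ruPerm.adj_map hq.1.1.1, hh.adj]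
  · have : q * h * g * (q * h)⁻¹ = q * (h * g * h⁻¹) * q⁻¹ := by simp [mul_assoc]
    rw [this]
    exact Qg.mul_mem (Qg.mul_mem hq (hh.norm g hg)) (Qg.inv_mem hq)

theorem Norm.map_fixed {h : Perm (Fin 4060)} (hh : Norm h) {x : Fin 4060} (hx : (x : ℕ) ∈ fixQ) :
    ((h x : Fin 4060) : ℕ) ∈ fixQ := by
  classical
  rw [← fixed_iff hcard] at hx ⊢
  intro g hg
  have hinj : Function.Injective fun q : Qg => (⟨h * q.1 * h⁻¹, hh.norm q.1 q.2⟩ : Qg) := fun a b e =>
    Subtype.ext (by simpa using congrArg Subtype.val e)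
  obtain ⟨q, hq⟩ := (Finite.injective_iff_surjective.1 hinj) ⟨g, hg⟩
  have e : g = h * q.1 * h⁻¹ := (congrArg Subtype.val hq).symm
  rw [e, Perm.mul_apply, Perm.mul_apply]
  simp [hx q.1 q.2]

theorem Norm.map_fixS {h : Perm (Fin 4060)} (hh : Norm h) {x : Fin 4060} (hx : el sC x = x) :
    el sC (h x) = h x := by
  obtain ⟨hs, hsm, -, -⟩ := sC_mem
  obtain ⟨c, hc, e⟩ := mem_Qg hcard (hh.norm _ hsm)
  obtain ⟨hk, -, -, -⟩ := qCode_spec hc
  have hT : ∀ {g : Perm (Fin 4060)}, g ∈ Qg → g ∈ Tg := fun hg => hg.1.1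
  have ho := order_ok
  simp only [Bool.and_eq_true, Bool.not_eq_true'] at ho
  have s5 : el sC ^ 5 = 1 := eq_of_baseEq hcard (Tg.pow_mem (hT hsm) 5) Tg.one_mem
    (fun x => (iterPt_el hs 5 x).symm) (fun x => rfl) ho.1.2
  have hne : el sC ≠ 1 := fun e1 => by
    have := baseEq_of_eq hcard (g := el sC) (el_val hs) (f' := fun b => b) (fun x => by rw [e1]; rfl)
    simp [this] at ho
  have hq5 : el (qCode c) ^ 5 = 1 := by rw [← e, conj_pow, s5]; simp
  have hb5 : baseEq (iterPt (ev (qCode c)) 5) (fun b => b) = true :=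
    baseEq_of_eq hcard (g := el (qCode c) ^ 5) (fun x => (iterPt_el hk 5 x).symm) (fun x => by rw [hq5]; rfl)
  have h5 := List.all_eq_true.1 fiveQ_ok c hc
  simp only [forceNat_eq, hb5, Bool.not_true, Bool.false_or, Bool.or_eq_true] at h5
  have hfix : el (qCode c) (h x) = h x := by rw [← e]; simp [hx]
  have key : ∀ j m : ℕ, baseEq (ev (qCode c)) (iterPt (ev sC) j) = true → j * m % 5 = 1 → el sC (h x) = h x := by
    intro j m hj hm
    have ej : el (qCode c) = el sC ^ j := eq_of_baseEq hcard (el_spec hk).1 (Tg.pow_mem (hT hsm) j) (el_val hk)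
      (fun x => (iterPt_el hs j x).symm) hj
    have es : el sC = el (qCode c) ^ m := by
      rw [ej, ← pow_mul, pow_eq_pow_mod _ s5, hm, pow_one]
    rw [es]
    have : el (qCode c) ∈ MulAction.stabilizer (Perm (Fin 4060)) (h x) := hfix
    exact Subgroup.pow_mem _ this m
  rcases h5 with (((h0 | h1) | h2) | h3) | h4
  · exfalso
    have e1 : el (qCode c) = 1 := eq_of_baseEq hcard (el_spec hk).1 Tg.one_mem (el_val hk) (fun x => rfl) h0
    rw [e1, conj_eq_one_iff] at e
    exact hne e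
  · exact key 1 1 h1 rfl
  · exact key 2 3 h2 rfl
  · exact key 3 2 h3 rfl
  · exact key 4 4 h4 rfl

theorem Norm.stable_base {h : Perm (Fin 4060)} (hh : Norm h) (hx0 : h (pt x0) = pt x0) :
    ∀ W ∈ ptsW1, Stable h W := by
  have hz : h (pt 0) = pt 0 := hh.f0
  rw [sets_shape.1]
  simp only [List.mem_cons, List.not_mem_nil, or_false]
  rintro W (rfl | rfl | rfl | rfl | rfl | rfl)
  · exact stable_single hz
  · exact stable_single hh.f1
  · exact stable_single hh.f2
  · exact stable_single hx0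
  · refine stable_of_mapsTo (by decide) (by decide) fun z hz' => ?_
    have hlt : z < 4060 := (by decide : ∀ z ∈ extQ, z < 4060) z hz'
    refine ⟨_, ?_, (pt_self _).symm⟩
    have hm := (ext_iff hcard (pt z)).1 (by rw [pt_val hlt]; exact hz')
    exact (ext_iff hcard _).2 ⟨hh.map_fixed hcard hm.1,
      fun e => hm.2.1 (h.injective (e.trans hh.f0.symm)), fun e => hm.2.2.1 (h.injective (e.trans hh.f1.symm)),
      fun e => hm.2.2.2 (h.injective (e.trans hh.f2.symm))⟩
  · refine stable_of_mapsTo (by decide) (by decide) fun z hz' => ?_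
    have hlt : z < 4060 := (by decide : ∀ z ∈ fourS, z < 4060) z hz'
    refine ⟨_, ?_, (pt_self _).symm⟩
    have hs : el sC (pt z) = pt z := (fixS_iff hcard _).2 (Or.inr (by rw [pt_val hlt]; exact hz'))
    refine ((fixS_iff hcard _).1 (hh.map_fixS hcard hs)).resolve_left fun hbad => ?_
    have hnot : z ∉ fixQ := (by decide : ∀ z ∈ fourS, z ∉ fixQ) z hz'
    apply hnot
    classical
    have hcardeq : ∀ y : Fin 4060, (y : ℕ) ∈ fixQ → ∃ w : Fin 4060, (w : ℕ) ∈ fixQ ∧ h w = y := by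
      intro y hy
      let f : {w : Fin 4060 // (w : ℕ) ∈ fixQ} → {w : Fin 4060 // (w : ℕ) ∈ fixQ} := fun w => ⟨h w, hh.map_fixed hcard w.2⟩
      have hf : Function.Injective f := fun a b e => Subtype.ext (h.injective (congrArg Subtype.val e))
      obtain ⟨w, hw⟩ := (Finite.injective_iff_surjective.1 hf) ⟨y, hy⟩
      exact ⟨w, w.2, congrArg Subtype.val hw⟩
    obtain ⟨w, hw, e⟩ := hcardeq _ hbad
    rw [h.injective e, pt_val hlt] at hw
    exact hw

/-- Signatures are preserved. -/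
theorem key_apply {h : Perm (Fin 4060)} (hadj : ∀ z y, Adj ruPerm (h z) (h y) ↔ Adj ruPerm z y)
    {Ws : List (List ℕ)} (hsub : ∀ W ∈ Ws, W ∈ ptsW5) (hst : ∀ W ∈ Ws, Stable h W) (x : Fin 4060) :
    keyOf (Ws.map fun W => W.map rowAt) (h x : Fin 4060) = keyOf (Ws.map fun W => W.map rowAt) x := by
  classical
  have hc : ∀ W ∈ Ws, cntIn (W.map rowAt) (h x : Fin 4060) = cntIn (W.map rowAt) x := by
    intro W hW
    have hbit : ∀ z ∈ W, ∀ y : Fin 4060, bitAt (rowAt z) y = if Adj ruPerm (pt z) y then 1 else 0 := by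
      intro z hz y
      have hm : z ∈ usedPts := List.mem_flatten.2 ⟨W, hsub W hW, hz⟩
      have h2 : inRow (rowAt z) (y : ℕ) = true ↔ Adj ruPerm (pt z) y := (row_spec hcard (rowAt_mem z hm) y).2
      have hle : bitAt (rowAt z) y ≤ 1 := Nat.and_le_right
      rw [inRow, Nat.beq_eq] at h2
      split_ifs with ha
      · exact h2.2 ha
      · have := mt h2.1 ha
        show bitAt (rowAt z) (y : ℕ) = 0
        omega
    have hcnt : ∀ y : Fin 4060, cntIn (W.map rowAt) y = (W.map pt).countP fun w => decide (Adj ruPerm w y) := by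
      intro y
      clear hsub hst hW
      induction W with
      | nil => rfl
      | cons z W ih =>
        show Nat.add (bitAt (rowAt z) y) (cntIn (W.map rowAt) y) = _
        rw [ih fun z hz => hbit z (List.mem_cons_of_mem _ hz), hbit z List.mem_cons_self, List.map_cons,
          List.countP_cons]
        simp only [Nat.add_eq, decide_eq_true_eq]
        omega
    rw [hcnt, hcnt, ← (hst W hW).countP_eq, List.countP_map, List.countP_map]
    exact List.countP_congr fun z _ => by simp [hadj]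
  clear hsub hst
  induction Ws with
  | nil => rfl
  | cons W Ws ih =>
    show Nat.add (cntIn (W.map rowAt) (h x : Fin 4060)) (Nat.mul 16 (keyOf _ (h x : Fin 4060))) = _
    rw [hc W List.mem_cons_self, ih fun W hW => hc W (List.mem_cons_of_mem _ hW)]
    rfl

omit hcard in
theorem class_spec {Ws : List (List ℕ)} {l : List (ℕ × List ℕ)} (h : classesOk Ws l = true) {e : ℕ × List ℕ}
    (he : e ∈ l) (x : Fin 4060) : keyOf Ws x = e.1 ↔ (x : ℕ) ∈ e.2 := by
  have h' := all4060_spec h x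
  simp only [forceNat_eq, List.all_eq_true] at h'
  have := h' e he
  rwa [sameB_iff, Nat.beq_eq, memB_iff] at this

omit hcard in
theorem single_spec {Ws : List (List ℕ)} {l : List (ℕ × ℕ)} (h : singlesOk Ws l = true) {e : ℕ × ℕ}
    (he : e ∈ l) (x : Fin 4060) : keyOf Ws x = e.1 ↔ e.2 = x := by
  have h' := all4060_spec h x
  simp only [forceNat_eq, List.all_eq_true] at h'
  have := h' e he
  rwa [sameB_iff, Nat.beq_eq, Nat.beq_eq] at this

theorem stable_class {h : Perm (Fin 4060)} (hadj : ∀ z y, Adj ruPerm (h z) (h y) ↔ Adj ruPerm z y)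
    {Ws : List (List ℕ)} (hsub : ∀ W ∈ Ws, W ∈ ptsW5) (hst : ∀ W ∈ Ws, Stable h W) {l : List (ℕ × List ℕ)}
    (hl : classesOk (Ws.map fun W => W.map rowAt) l = true) {e : ℕ × List ℕ} (he : e ∈ l)
    (hlt : ∀ z ∈ e.2, z < 4060) (z : ℕ) (hz : z ∈ e.2) : ((h (pt z) : Fin 4060) : ℕ) ∈ e.2 := by
  rw [← class_spec hl he, key_apply hcard hadj hsub hst, class_spec hl he, pt_val (hlt z hz)]
  exact hz

theorem Norm.stable_two {h : Perm (Fin 4060)} (hh : Norm h) (hx0 : h (pt x0) = pt x0) :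
    ∀ W ∈ ptsW2, Stable h W := by
  have h1 := hh.stable_base hcard hx0
  obtain ⟨hnd, -, -, -, -, hsub2, -, -⟩ := pts_nodup
  have hsub1 : ∀ W ∈ ptsW1, W ∈ ptsW5 := fun W hW => hsub2 W (by rw [ptsW2_eq]; exact List.mem_append_left _ hW)
  intro W hW
  rw [ptsW2_eq] at hW
  rcases List.mem_append.1 hW with hW | hW
  · exact h1 W hW
  · obtain ⟨e, he, rfl⟩ := List.mem_map.1 hW
    have hm : e.2 ∈ ptsW5 := hsub2 _ (by rw [ptsW2_eq]; exact List.mem_append_right _ (List.mem_map_of_mem he))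
    refine stable_of_mapsTo (hnd _ hm).1 (hnd _ hm).2 fun z hz => ⟨_, ?_, (pt_self _).symm⟩
    have hl := cls1_ok
    rw [rowsW_eq.1] at hl
    exact stable_class hcard hh.adj hsub1 h1 hl he (hnd _ hm).2 z hz

theorem Norm.eq_one {h : Perm (Fin 4060)} (hh : Norm h) (hx0 : h (pt x0) = pt x0) (hy : h (pt y5) = pt y5) :
    h = 1 := by
  obtain ⟨hnd, -, -, -, -, hsub2, hsub3, hsub4⟩ := pts_nodup
  obtain ⟨-, e3, e4, e5⟩ := sets_shape
  obtain ⟨-, -, r3, r4, r5⟩ := rowsW_eq
  have h3 : ∀ W ∈ ptsW3, Stable h W := fun W hW => by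
    rw [e3] at hW
    rcases List.mem_append.1 hW with hW | hW
    · exact hh.stable_two hcard hx0 W hW
    · rw [List.mem_singleton] at hW; subst hW; exact stable_single hy
  have fixer : ∀ {Ws : List (List ℕ)} {l : List (ℕ × ℕ)}, (∀ W ∈ Ws, W ∈ ptsW5) → (∀ W ∈ Ws, Stable h W) →
      singlesOk (Ws.map fun W => W.map rowAt) l = true → ∀ e ∈ l, e.2 < 4060 → h (pt e.2) = pt e.2 := by
    intro Ws l hsub hst hl e he hlt
    have := (single_spec hl he (h (pt e.2))).1 (by
      rw [key_apply hcard hh.adj hsub hst, single_spec hl he, pt_val hlt])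
    exact Fin.ext (by rw [pt_val hlt, ← this])
  have h4 : ∀ W ∈ ptsW4, Stable h W := fun W hW => by
    rw [e4] at hW
    rcases List.mem_append.1 hW with hW' | hW'
    · exact h3 W hW'
    · obtain ⟨e, he, rfl⟩ := List.mem_map.1 hW'
      have hm : [e.2] ∈ ptsW5 := hsub4 _ (by rw [e4]; exact List.mem_append_right _ hW')
      refine stable_single (fixer hsub3 h3 (by rw [← r3]; exact single3_ok) e he ((hnd _ hm).2 _ (by simp)))
  have h5 : ∀ W ∈ ptsW5, Stable h W := fun W hW => by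
    rw [e5] at hW
    rcases List.mem_append.1 hW with hW' | hW'
    · exact h4 W hW'
    · obtain ⟨e, he, rfl⟩ := List.mem_map.1 hW'
      have hm : [e.2] ∈ ptsW5 := by rw [e5]; exact List.mem_append_right _ hW'
      exact stable_single (fixer hsub4 h4 (by rw [← r4]; exact single4_ok) e he ((hnd _ hm).2 _ (by simp)))
  refine Equiv.ext fun x => ?_
  have hord := order5_ok
  rw [r5] at hord
  simp only [orderOk, Bool.and_eq_true] at hord
  obtain ⟨hpos, hinc⟩ := hord
  set K : ℕ → ℕ := fun i => keyOf (ptsW5.map fun W => W.map rowAt) (pim 12 keyOrd i) with hK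
  have hp : ∀ y : Fin 4060, pim 12 keyPos y < 4060 ∧ pim 12 keyOrd (pim 12 keyPos y) = y := fun y => by
    have := all4060_spec hpos y
    simp only [forceNat_eq, Bool.and_eq_true, Nat.blt_eq] at this
    exact ⟨this.1, Nat.eq_of_beq_eq_true this.2⟩
  have hstep : ∀ i, i < 4059 → K i < K (i + 1) := fun i hi => by
    have := allFrom_spec hinc i (Nat.zero_le _) (by omega)
    simp only [forceNat_eq, Nat.blt_eq] at this
    exact this
  have hmono : ∀ i j, i < j → j < 4060 → K i < K j := by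
    intro i j hij
    induction j with
    | zero => omega
    | succ j ih =>
      intro hj
      rcases Nat.eq_or_lt_of_le (Nat.le_of_lt_succ hij) with rfl | h'
      · exact hstep i (by omega)
      · exact lt_trans (ih h' (by omega)) (hstep j (by omega))
  have hk := key_apply hcard hh.adj (fun W hW => hW) h5 x
  obtain ⟨a1, a2⟩ := hp (h x)
  obtain ⟨b1, b2⟩ := hp x
  have he : pim 12 keyPos (h x : Fin 4060) = pim 12 keyPos x := by
    rcases lt_trichotomy (pim 12 keyPos (h x : Fin 4060)) (pim 12 keyPos x) with c | c | c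
    · have := hmono _ _ c b1
      simp only [hK, a2, b2, hk] at this
      omega
    · exact c
    · have := hmono _ _ c a1
      simp only [hK, a2, b2, hk] at this
      omega
  rw [he, b2] at a2
  exact Fin.ext a2.symm

/-- The rigidity. -/
theorem mem_Pg_of_aut (h : Perm (Fin 4060)) (h0 : h 0 = 0) (h1 : h (pt 2305) = pt 2305)
    (hadj : ∀ z y, Adj ruPerm (h z) (h y) ↔ Adj ruPerm z y) (hnorm : ∀ g ∈ Pg, h * g * h⁻¹ ∈ Pg) : h ∈ Pg := by
  have hgood := good_ruPerm
  set z := h (pt 2306) with hz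
  have hB2306 : IsB (pt 2306) := by rw [IsB, pt_val (by omega)]; decide +kernel
  have hzB : IsB z := by
    rw [← hgood.adj_zero hcard, ← h0, hz, hadj, hgood.adj_zero hcard]
    exact hB2306
  have hz1 : z ≠ pt 2305 := fun e => pt_ne (by omega) (by omega) (by omega : (2306 : ℕ) ≠ 2305)
    (h.injective (e.trans h1.symm))
  have hz2 : ¬ Adj ruPerm (pt 2305) z := by
    rw [hz, ← h1, hadj, hgood.adj_second hcard, pt_val (by omega),
      show fRoot forP 2306 = 2306 by apply Nat.eq_of_beq_eq_true; decide +kernel]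
    simp
  have hrow : ((2305, row2305) : ℕ × ℕ) ∈ rowList := by simp [rowList]
  have hroot : fRoot forP z = 2306 := by
    have hf := all4060_spec farB_ok z
    have e1 : inRow row2305 (z : ℕ) = false := Bool.eq_false_iff.2 fun e => hz2 ((row_spec hcard hrow z).2.1 e)
    have e2 : Nat.beq (z : ℕ) 2305 = false := by
      simp only [Bool.eq_false_iff, ne_eq, Nat.beq_eq]
      exact fun e => hz1 (by rw [← e, pt_self])
    simp only [show inB (z : ℕ) = true from hzB, e1, e2, Bool.not_true, Bool.false_or, Nat.beq_eq] at hf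
    exact hf
  obtain ⟨-, -, p, hp, ep⟩ := forest_mem forP_ok forP_gens z
  rw [hroot] at ep
  have hh1 : Norm (p⁻¹ * h) := by
    refine ⟨?_, ?_, ?_, fun a b => ?_, fun g hg => ?_⟩
    · rw [Perm.mul_apply, h0]; exact (Pg.inv_mem hp).1.2
    · rw [Perm.mul_apply, h1]; exact (Pg.inv_mem hp).2
    · rw [Perm.mul_apply, ← hz, ← ep]; exact p.symm_apply_apply _
    · rw [Perm.mul_apply, Perm.mul_apply, hgood.adj_map (Pg.inv_mem hp).1.1, hadj]
    · refine ⟨?_, ?_⟩
      · have : p⁻¹ * h * g * (p⁻¹ * h)⁻¹ = p⁻¹ * (h * g * h⁻¹) * p := by simp [mul_assoc]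
        rw [this]
        exact Pg.mul_mem (Pg.mul_mem (Pg.inv_mem hp) (hnorm g hg.1)) hp
      · show (p⁻¹ * h * g * (p⁻¹ * h)⁻¹) (pt 2306) = pt 2306
        have e : (p⁻¹ * h) (pt 2306) = pt 2306 := by
          rw [Perm.mul_apply, ← hz, ← ep]; exact p.symm_apply_apply _
        have e' : (p⁻¹ * h)⁻¹ (pt 2306) = pt 2306 := Perm.inv_eq_iff_eq.2 e.symm
        simp only [Perm.mul_apply] at e e' ⊢
        rw [e', show g (pt 2306) = pt 2306 from hg.2, e]
  have hx0lt : x0 < 4060 := pts_nodup.2.2.1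
  have hmem : (((p⁻¹ * h) (pt x0) : Fin 4060) : ℕ) ∈ fourS := by
    have hs : el sC (pt x0) = pt x0 := (fixS_iff hcard _).2 (Or.inr (by rw [pt_val hx0lt]; decide))
    refine ((fixS_iff hcard _).1 (hh1.map_fixS hcard hs)).resolve_left fun hbad => ?_
    classical
    let f : {w : Fin 4060 // (w : ℕ) ∈ fixQ} → {w : Fin 4060 // (w : ℕ) ∈ fixQ} :=
      fun w => ⟨(p⁻¹ * h) w, hh1.map_fixed hcard w.2⟩
    have hf : Function.Injective f := fun a b e => Subtype.ext ((p⁻¹ * h).injective (congrArg Subtype.val e))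
    obtain ⟨w, hw⟩ := (Finite.injective_iff_surjective.1 hf) ⟨_, hbad⟩
    have := (p⁻¹ * h).injective (congrArg Subtype.val hw)
    have hw2 := w.2
    rw [this, pt_val hx0lt] at hw2
    exact absurd hw2 (by decide)
  have hmv := List.all_eq_true.1 moveX_ok _ hmem
  obtain ⟨c, hc, e⟩ := List.any_eq_true.1 hmv
  have hq := qCode_mem hc
  have eq0 : el (qCode c) (pt x0) = (p⁻¹ * h) (pt x0) :=
    Fin.ext (by rw [el_val (qCode_spec hc).1, pt_val hx0lt, Nat.eq_of_beq_eq_true e])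
  set h2 := (el (qCode c))⁻¹ * (p⁻¹ * h) with hh2
  have n2 : Norm h2 := hh1.mul_left (Qg.inv_mem hq)
  have f2 : h2 (pt x0) = pt x0 := by rw [hh2, Perm.mul_apply, ← eq0]; simp
  obtain ⟨-, hyn, -, hy5, hylt, hsub2, -, -⟩ := pts_nodup
  have hk2 := key2_ok
  simp only [Bool.and_eq_true] at hk2
  have hcl := hk2.1
  rw [rowsW_eq.2.1] at hcl
  have hy5m : y5 ∈ orbY := by decide
  have himg := stable_class hcard n2.adj hsub2 (n2.stable_two hcard f2) hcl (List.mem_singleton.2 rfl) hylt y5 hy5m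
  have hj := List.all_eq_true.1 hk2.2 _ himg
  obtain ⟨hs, hsm, -, -⟩ := sC_mem
  obtain ⟨j, ej⟩ : ∃ j, iterPt (ev sC) j y5 = ((h2 (pt y5) : Fin 4060) : ℕ) := by
    by_contra hno
    push Not at hno
    rw [allFrom_of_forall fun t _ => by simp [Bool.eq_false_iff, hno t]] at hj
    exact Bool.noConfusion hj
  have eqy : (el sC ^ j) (pt y5) = h2 (pt y5) := by
    refine Fin.ext ?_
    rw [← iterPt_el hs j (pt y5), pt_val hy5, ej]
  set h3 := (el sC ^ j)⁻¹ * h2 with hh3
  have n3 : Norm h3 := n2.mul_left (Qg.inv_mem (Qg.pow_mem hsm j))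
  have f3 : h3 (pt x0) = pt x0 := by
    rw [hh3, Perm.mul_apply, f2, Perm.inv_eq_iff_eq]
    have hs0 : el sC ∈ MulAction.stabilizer (Perm (Fin 4060)) (pt x0) :=
      (fixS_iff hcard _).2 (Or.inr (by rw [pt_val hx0lt]; decide))
    exact (Subgroup.pow_mem _ hs0 j).symm
  have fy : h3 (pt y5) = pt y5 := by rw [hh3, Perm.mul_apply, ← eqy]; simp
  have hone := n3.eq_one hcard f3 fy
  have e3 : h = p * (el (qCode c) * el sC ^ j) := by
    rw [hh3, hh2, inv_mul_eq_one, eq_inv_mul_iff_mul_eq, eq_inv_mul_iff_mul_eq] at hone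
    exact hone.symm
  rw [e3]
  exact Pg.mul_mem hp (Pg.mul_mem hq.1 (Qg.pow_mem hsm j).1)

end

end Cfsg.Agent.H12.RuRec
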